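import Mathlib
import Cfsg.Agent.Base
import Cfsg.Agent.Lib.Tensor.Geo
import Cfsg.Agent.Lib.Tensor.Alg

/-!
The factor algebras of tensor structures, and invariant subalgebras of a tensor power.
-/

set_option autoImplicit false
set_option linter.unusedSectionVars false
set_option linter.unusedSimpArgs false

namespace H28.Wr

open Module Cfsg H97 H11.Ten

variable {F R U V : Type*} [Field F] [AddCommGroup R] [Module F R] [AddCommGroup U]
  [Module F U] [AddCommGroup V] [Module F V]

section Conj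

theorem cN_mul (g : V ≃ₗ[F] V) (a b : Module.End F V) : cN g (a * b) = cN g a * cN g b := by
  ext x; simp [cN_apply]

theorem cN_cN (g h : V ≃ₗ[F] V) (a : Module.End F V) : cN g (cN h a) = cN (g * h) a := by
  ext x; simp [cN_apply]

theorem cN_one (a : Module.End F V) : cN 1 a = a := by ext x; simp [cN_apply]

theorem cN_inv_cN (g : V ≃ₗ[F] V) (a : Module.End F V) : cN g⁻¹ (cN g a) = a := by
  rw [cN_cN, inv_mul_cancel, cN_one]

theorem cN_cN_inv (g : V ≃ₗ[F] V) (a : Module.End F V) : cN g (cN g⁻¹ a) = a := by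
  rw [cN_cN, mul_inv_cancel, cN_one]

theorem cN_eq (g : V ≃ₗ[F] V) (a : Module.End F V) :
    cN g a = (g : Module.End F V) * a * ((g⁻¹ : V ≃ₗ[F] V) : Module.End F V) := rfl

theorem cN_add (g : V ≃ₗ[F] V) (a b : Module.End F V) : cN g (a + b) = cN g a + cN g b := by
  ext x; simp [cN_apply]

theorem cN_sub (g : V ≃ₗ[F] V) (a b : Module.End F V) : cN g (a - b) = cN g a - cN g b := by
  ext x; simp [cN_apply]

theorem cN_smul (g : V ≃ₗ[F] V) (c : F) (a : Module.End F V) : cN g (c • a) = c • cN g a := by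
  ext x; simp [cN_apply]

theorem cN_id (g : V ≃ₗ[F] V) : cN g 1 = 1 := by ext x; simp [cN_apply]

theorem cN_zero (g : V ≃ₗ[F] V) : cN g 0 = 0 := by ext x; simp [cN_apply]

theorem cN_injective (g : V ≃ₗ[F] V) : Function.Injective (cN g) := fun a b h => by
  rw [← cN_inv_cN g a, h, cN_inv_cN]

theorem coe_mul_inv (g : V ≃ₗ[F] V) :
    (g : Module.End F V) * ((g⁻¹ : V ≃ₗ[F] V) : Module.End F V) = 1 := by
  ext x; simp

theorem coe_inv_mul (g : V ≃ₗ[F] V) :
    ((g⁻¹ : V ≃ₗ[F] V) : Module.End F V) * (g : Module.End F V) = 1 := by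
  ext x; simp

theorem cN_of_commute {g : V ≃ₗ[F] V} {a : Module.End F V}
    (h : Commute (g : Module.End F V) a) : cN g a = a := by
  rw [cN_eq, h.eq, mul_assoc, coe_mul_inv, mul_one]

theorem commute_of_cN {g : V ≃ₗ[F] V} {a : Module.End F V} (h : cN g a = a) :
    Commute (g : Module.End F V) a := by
  change _ * _ = _ * _
  conv_rhs => rw [← h, cN_eq, mul_assoc, coe_inv_mul, mul_one]

theorem commute_cN (g : V ≃ₗ[F] V) {a b : Module.End F V} (h : Commute a b) :
    Commute (cN g a) (cN g b) := by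
  change _ * _ = _ * _
  rw [← cN_mul, h.eq, cN_mul]

end Conj

section One

variable (T : TS F R U V)

/-- The algebra of the second factor. -/
noncomputable def psi : Module.End F U →ₐ[F] Module.End F V where
  toFun a := T.op LinearMap.id a
  map_one' := T.lext fun r u => by simp
  map_mul' a b := T.lext fun r u => by simp
  map_zero' := T.lext fun r u => by simp
  map_add' a b := T.lext fun r u => by simp
  commutes' c := T.lext fun r u => by simp [Algebra.algebraMap_eq_smul_one]

@[simp] theorem psi_τ (a : Module.End F U) (r : R) (u : U) :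
    psi T a (T.τ r u) = T.τ r (a u) := T.op_τ _ _ _ _

/-- The algebra of the first factor. -/
noncomputable def chi : Module.End F R →ₐ[F] Module.End F V := psi T.flip

@[simp] theorem chi_τ (s : Module.End F R) (r : R) (u : U) :
    chi T s (T.τ r u) = T.τ (s r) u := psi_τ T.flip s u r

theorem commute_psi_chi (a : Module.End F U) (s : Module.End F R) :
    Commute (psi T a) (chi T s) := T.lext fun r u => by simp

theorem psi_e (w : U) (φ : Dual F U) (x : V) :
    psi T (φ.smulRight w) x = T.τ (T.cW φ x) w := by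
  have : psi T (φ.smulRight w) = T.τ.flip w ∘ₗ T.cW φ := T.lext fun r u => by simp
  rw [this]; rfl

theorem cW_chi (φ : Dual F U) (s : Module.End F R) (x : V) :
    T.cW φ (chi T s x) = s (T.cW φ x) := by
  have : T.cW φ ∘ₗ chi T s = s ∘ₗ T.cW φ := T.lext fun r u => by simp
  exact LinearMap.congr_fun this x

theorem cW_psi (φ : Dual F U) (a : Module.End F U) (x : V) :
    T.cW φ (psi T a x) = T.cW (φ ∘ₗ a) x := by
  have : T.cW φ ∘ₗ psi T a = T.cW (φ ∘ₗ a) := T.lext fun r u => by simp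
  exact LinearMap.congr_fun this x

theorem opE_one_coe (β : U ≃ₗ[F] U) :
    (T.opE 1 β : Module.End F V) = psi T (β : Module.End F U) := T.lext fun r u => by simp

theorem opE_one_apply (β : U ≃ₗ[F] U) (x : V) : T.opE 1 β x = psi T (β : Module.End F U) x :=
  LinearMap.congr_fun (opE_one_coe T β) x

theorem opE_coe' (α : R ≃ₗ[F] R) (β : U ≃ₗ[F] U) :
    (T.opE α β : Module.End F V) = psi T (β : Module.End F U) * chi T (α : Module.End F R) :=
  T.lext fun r u => by simp

/-- The coefficient of an endomorphism. -/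
noncomputable def co (φ : Dual F U) (u : U) (x : Module.End F V) : Module.End F R :=
  T.cW φ ∘ₗ x ∘ₗ T.τ.flip u

theorem co_apply (φ : Dual F U) (u : U) (x : Module.End F V) (r : R) :
    co T φ u x r = T.cW φ (x (T.τ r u)) := rfl

theorem psi_mul_mul_psi (w u : U) (φ χ : Dual F U) (x : Module.End F V) :
    psi T (φ.smulRight w) * x * psi T (χ.smulRight u) =
      psi T (χ.smulRight w) * chi T (co T φ u x) := by
  ext y
  simp [psi_e, cW_chi, co_apply]

theorem psi_mul_chi_eq_zero {a : Module.End F U} {s : Module.End F R}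
    (h : psi T a * chi T s = 0) : a = 0 ∨ s = 0 := by
  by_contra hc
  push Not at hc
  obtain ⟨u, hu⟩ := DFunLike.ne_iff.1 hc.1
  obtain ⟨r, hr⟩ := DFunLike.ne_iff.1 hc.2
  have := LinearMap.congr_fun h (T.τ r u)
  simp only [Module.End.mul_apply, chi_τ, psi_τ, LinearMap.zero_apply, T.τ_eq_zero] at this
  exact this.elim hr hu

theorem psi_injective [Nontrivial R] : Function.Injective (psi T) := by
  rw [injective_iff_map_eq_zero]
  intro a ha
  exact (psi_mul_chi_eq_zero T (s := 1) (by simp [ha])).resolve_right one_ne_zero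

theorem chi_injective [Nontrivial U] : Function.Injective (chi T) := psi_injective T.flip

theorem range_psi_e {w : U} {φ : Dual F U} (hφ : φ ≠ 0) :
    LinearMap.range (psi T (φ.smulRight w)) = T.col w := by
  obtain ⟨u, hu⟩ := exists_apply_eq_one hφ
  refine le_antisymm (by rintro _ ⟨x, rfl⟩; exact ⟨_, (psi_e T w φ x).symm⟩) ?_
  rintro _ ⟨r, rfl⟩
  exact ⟨T.τ r u, by simp [hu]⟩

theorem psi_eq_chi [Nontrivial R] {a : Module.End F U} {s : Module.End F R}
    (h : psi T a = chi T s) : ∃ c : F, a = c • LinearMap.id := by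
  by_contra hc
  push Not at hc
  obtain ⟨u, hu⟩ := exists_notMem_of_not_scalar hc
  obtain ⟨φ, h1, h2⟩ := exists_dual_of_notMem_span hu 1
  obtain ⟨r, hr⟩ := exists_ne (0 : R)
  have := congrArg (T.cW φ) (LinearMap.congr_fun h (T.τ r u))
  simp [h1, h2, hr] at this

/-- The image of a tensor structure under an automorphism. -/
noncomputable def mapT (g : V ≃ₗ[F] V) : TS F R U V where
  τ := T.τ.compr₂ g.toLinearMap
  h := T.h.compr₂_linearEquiv g

@[simp] theorem mapT_τ (g : V ≃ₗ[F] V) (r : R) (u : U) : (mapT T g).τ r u = g (T.τ r u) := rfl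

theorem mapT_mapT (g h : V ≃ₗ[F] V) : mapT (mapT T h) g = mapT T (g * h) := rfl

theorem mapT_one : mapT T 1 = T := rfl

theorem psi_mapT (g : V ≃ₗ[F] V) (a : Module.End F U) : psi (mapT T g) a = cN g (psi T a) :=
  (mapT T g).lext fun r u => by rw [psi_τ]; simp [cN_apply]

theorem chi_mapT (g : V ≃ₗ[F] V) (s : Module.End F R) : chi (mapT T g) s = cN g (chi T s) :=
  (mapT T g).lext fun r u => by rw [chi_τ]; simp [cN_apply]

theorem cW_mapT (g : V ≃ₗ[F] V) (φ : Dual F U) (x : V) :
    (mapT T g).cW φ x = T.cW φ (g⁻¹ x) := by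
  have : (mapT T g).cW φ = T.cW φ ∘ₗ ((g⁻¹ : V ≃ₗ[F] V) : V →ₗ[F] V) :=
    (mapT T g).lext fun r u => by rw [TS.cW_τ]; simp
  exact LinearMap.congr_fun this x

theorem mem_col_mapT {g : V ≃ₗ[F] V} {w : U} {x : V} :
    x ∈ (mapT T g).col w ↔ g⁻¹ x ∈ T.col w :=
  ⟨fun ⟨r, hr⟩ => ⟨r, by rw [← hr]; simp⟩, fun ⟨r, hr⟩ => ⟨r, by
    change g (T.τ.flip w r) = x
    rw [hr]; simp⟩⟩

theorem opE_mapT (g : V ≃ₗ[F] V) (α : R ≃ₗ[F] R) (β : U ≃ₗ[F] U) :
    (mapT T g).opE α β = g * T.opE α β * g⁻¹ :=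
  LinearEquiv.toLinearMap_injective ((mapT T g).lext fun r u => by
    rw [LinearEquiv.coe_coe, TS.opE_τ]; simp)

theorem mem_TG_mapT {g h : V ≃ₗ[F] V} : h ∈ (mapT T g).TG ↔ g⁻¹ * h * g ∈ T.TG :=
  ⟨fun ⟨α, β, e⟩ => ⟨α, β, fun r u => by simpa using congrArg (g⁻¹ : V ≃ₗ[F] V) (e r u)⟩,
    fun ⟨α, β, e⟩ => ⟨α, β, fun r u => by simpa using congrArg g (e r u)⟩⟩

variable [FiniteDimensional F U]

theorem co_mul (φ : Dual F U) (u : U) (x y : Module.End F V) :
    co T φ u (x * y) = ∑ j, co T φ (Module.finBasis F U j) x *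
      co T ((Module.finBasis F U).coord j) u y := by
  ext r
  rw [co_apply, Module.End.mul_apply, T.eq_sum (Module.finBasis F U) (y _), map_sum, map_sum,
    LinearMap.sum_apply]
  rfl

theorem exists_chi_of_comm [Nontrivial U] {x : Module.End F V} (h : ∀ a, Commute x (psi T a)) :
    ∃ s, x = chi T s := by
  obtain ⟨u₀, hu₀⟩ := exists_ne (0 : U)
  obtain ⟨φ, hφ⟩ := exists_dual_of_ne_zero (F := F) hu₀ 1
  refine ⟨co T φ u₀ x, T.lext fun r u => ?_⟩
  have := LinearMap.congr_fun (h (φ.smulRight u)).eq (T.τ r u₀)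
  simp only [Module.End.mul_apply, psi_τ, LinearMap.smulRight_apply, hφ, one_smul] at this
  rw [this, psi_e, chi_τ, co_apply]

theorem mul_ne_zero_of_comm [Nontrivial U] {x : Module.End F V} (h : ∀ a, Commute x (psi T a))
    (hx : x ≠ 0) {a : Module.End F U} (ha : a ≠ 0) : psi T a * x ≠ 0 := fun h0 => by
  obtain ⟨s, rfl⟩ := exists_chi_of_comm T h
  exact (psi_mul_chi_eq_zero T h0).elim ha fun e => hx (by simp [e])

/-- An endomorphism all of whose off-diagonal coefficients vanish lies in the first factor. -/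
theorem comm_of_co [FiniteDimensional F R] (hk : 2 ≤ finrank F U) {x : Module.End F V}
    (h : ∀ (w : U) (φ : Dual F U), φ w = 0 → co T φ w x = 0) (a : Module.End F U) :
    Commute x (psi T a) := by
  have : Nontrivial U := Module.nontrivial_of_finrank_pos (R := F) (by omega)
  obtain ⟨u₀, hu₀⟩ := exists_ne (0 : U)
  obtain ⟨φ₀, hφ₀⟩ := exists_dual_of_ne_zero (F := F) hu₀ 1
  have h1 : ∀ r w, x (T.τ r w) ∈ T.col w := fun r w =>
    T.mem_col_of fun φ hφ => LinearMap.congr_fun (h w φ hφ) r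
  have h2 : ∀ r w, w ∉ F ∙ u₀ → x (T.τ r w) = T.τ (co T φ₀ u₀ x r) w := fun r w hw => by
    obtain ⟨r₁, e₁⟩ := h1 r w
    obtain ⟨r₂, e₂⟩ := h1 r u₀
    obtain ⟨r₃, e₃⟩ := h1 r (w + u₀)
    simp only [LinearMap.flip_apply] at e₁ e₂ e₃
    rw [map_add, map_add, map_add, ← e₁, ← e₂] at e₃
    obtain ⟨φ, a1, a2⟩ := exists_dual_of_notMem_span hw 1
    have hw' : u₀ ∉ F ∙ w := fun hc => by
      obtain ⟨c, rfl⟩ := Submodule.mem_span_singleton.1 hc
      have : c = 0 := by simpa [a2] using a1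
      exact hu₀ (by simp [this])
    obtain ⟨φ', b1, b2⟩ := exists_dual_of_notMem_span hw' 1
    have c1 := congrArg (T.cW φ) e₃
    have c2 := congrArg (T.cW φ') e₃
    simp only [map_add, TS.cW_τ, a1, a2, b1, b2, one_smul, zero_smul, add_zero, zero_add] at c1 c2
    rw [co_apply, ← e₁, ← e₂, ← c1, ← c2]
    simp [hφ₀]
  have h3 : x = chi T (co T φ₀ u₀ x) := T.lext fun r w => by
    rw [chi_τ]
    by_cases hw : w ∈ F ∙ u₀
    · obtain ⟨w', hw'⟩ := exists_notMem_span hk u₀
      have h4 : w + w' ∉ F ∙ u₀ := fun hc => hw' (by simpa using Submodule.sub_mem _ hc hw)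
      have h5 := h2 r _ h4
      rw [map_add, map_add, map_add, h2 r w' hw'] at h5
      exact add_right_cancel h5
    · exact h2 r w hw
  rw [h3]
  exact (commute_psi_chi T a _).symm

/-- A subalgebra whose multiples with the second factor generate everything is everything. -/
theorem eq_top_of_gen [Nontrivial U] {S : Subalgebra F (Module.End F R)}
    (h : ∀ A : Subalgebra F (Module.End F V), (∀ a, psi T a ∈ A) → (∀ s ∈ S, chi T s ∈ A) → A = ⊤) :
    S = ⊤ := by
  let A : Subalgebra F (Module.End F V) :=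
    { carrier := {x | ∀ φ u, co T φ u x ∈ S}
      mul_mem' := fun {x y} hx hy φ u => by
        rw [co_mul]; exact S.sum_mem fun j _ => S.mul_mem (hx _ _) (hy _ _)
      add_mem' := fun {x y} hx hy φ u => by
        convert S.add_mem (hx φ u) (hy φ u) using 1
        ext r; simp [co_apply]
      algebraMap_mem' := fun c φ u => by
        convert S.algebraMap_mem (c * φ u) using 1
        ext r; simp [co_apply, Algebra.algebraMap_eq_smul_one, smul_smul] }
  have hA : A = ⊤ := h A (fun a φ u => by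
    convert S.algebraMap_mem (φ (a u)) using 1
    ext r; simp [co_apply, Algebra.algebraMap_eq_smul_one]) fun s hs φ u => by
      convert S.smul_mem hs (φ u) using 1
      ext r; simp [co_apply]
  obtain ⟨u₀, hu₀⟩ := exists_ne (0 : U)
  obtain ⟨φ, hφ⟩ := exists_dual_of_ne_zero (F := F) hu₀ 1
  refine eq_top_iff.2 fun s _ => ?_
  have : chi T s ∈ A := hA ▸ Algebra.mem_top
  convert this φ u₀ using 1
  ext r; simp [co_apply, hφ]

/-- An element of the stabiliser of small rank lives in one factor. -/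
theorem dichotomy [FiniteDimensional F R] (hk : 3 ≤ finrank F U) {z : V ≃ₗ[F] V} (hz : z ∈ T.TG)
    (hr : finrank F (LinearMap.range ((z : Module.End F V) - 1)) ≤ finrank F R) :
    (∃ a, (z : Module.End F V) = psi T a) ∨ ∃ s, (z : Module.End F V) = chi T s := by
  obtain ⟨α, β, e⟩ := hz
  have := T.finite
  by_cases hβ : ∃ c : F, (β : Module.End F U) = c • LinearMap.id
  · obtain ⟨c, hc⟩ := hβ
    refine Or.inr ⟨c • (α : Module.End F R), T.lext fun r u => ?_⟩
    have := LinearMap.congr_fun hc u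
    simp only [LinearEquiv.coe_coe, LinearMap.smul_apply, LinearMap.id_apply] at this
    simp [e, this]
  push Not at hβ
  obtain ⟨u, hu⟩ := exists_notMem_of_not_scalar hβ
  obtain ⟨φ₀, a1, a2⟩ := exists_dual_of_notMem_span hu 1
  have h1 : LinearMap.range (((z : Module.End F V) - 1) ∘ₗ T.τ.flip u) =
      LinearMap.range ((z : Module.End F V) - 1) :=
    Submodule.eq_of_le_of_finrank_le (LinearMap.range_comp_le_range _ _) (hr.trans (le_of_eq
      (LinearMap.finrank_range_of_inj ((injective_iff_map_eq_zero _).2 fun r hr => by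
        have := congrArg (T.cW φ₀) hr
        simpa [e, a1, show φ₀ (β u) = 1 from a2] using this)).symm))
  obtain ⟨φ, b0, b1, b2⟩ := exists_dual_two hk u (β u)
  obtain ⟨y, hy⟩ := exists_apply_eq_one b0
  have h2 : ∀ r, φ (β y) • α r = r := fun r => by
    obtain ⟨r', hr'⟩ : ((z : Module.End F V) - 1) (T.τ r y) ∈
      LinearMap.range (((z : Module.End F V) - 1) ∘ₗ T.τ.flip u) := h1 ▸ ⟨_, rfl⟩
    have := congrArg (T.cW φ) hr'
    simp [e, b1, b2, hy] at this
    exact (sub_eq_zero.1 this.symm)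
  by_cases h0 : φ (β y) = 0
  · refine Or.inr ⟨0, T.lext fun r u => ?_⟩
    have : r = 0 := by rw [← h2 r, h0, zero_smul]
    simp [this]
  refine Or.inl ⟨(φ (β y))⁻¹ • (β : Module.End F U), T.lext fun r u => ?_⟩
  conv_rhs => rw [← h2 r]
  simp [e, smul_smul, h0]

end One

section Two

variable (T T' : TS F R U V)

/-- The two structures have the same factor algebra. -/
def Same : Prop := ∀ a, ∃ a', psi T a = psi T' a'

/-- The factor algebras commute. -/
def Comm : Prop := ∀ a b, Commute (psi T a) (psi T' b)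

/-- Equal or commuting factor algebras. -/
def Rel : Prop := Same T T' ∨ Comm T T'

variable {T T'}

theorem Same.refl (T : TS F R U V) : Same T T := fun a => ⟨a, rfl⟩

theorem Same.trans {T'' : TS F R U V} (h : Same T T') (h' : Same T' T'') : Same T T'' := fun a => by
  obtain ⟨a', e⟩ := h a
  obtain ⟨a'', e'⟩ := h' a'
  exact ⟨a'', e.trans e'⟩

theorem Comm.symm (h : Comm T T') : Comm T' T := fun a b => (h b a).symm

theorem Comm.of_same {T'' : TS F R U V} (h : Same T T') (h' : Comm T' T'') : Comm T T'' :=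
  fun a b => by obtain ⟨a', e⟩ := h a; exact e ▸ h' a' b

theorem Same.map (h : Same T T') (g : V ≃ₗ[F] V) : Same (mapT T g) (mapT T' g) := fun a => by
  obtain ⟨a', e⟩ := h a
  exact ⟨a', by rw [psi_mapT, psi_mapT, e]⟩

theorem Comm.map (h : Comm T T') (g : V ≃ₗ[F] V) : Comm (mapT T g) (mapT T' g) := fun a b => by
  rw [psi_mapT, psi_mapT]; exact commute_cN g (h a b)

theorem Rel.map (h : Rel T T') (g : V ≃ₗ[F] V) : Rel (mapT T g) (mapT T' g) :=
  h.imp (·.map g) (·.map g)

theorem same_of_mem_TG {g : V ≃ₗ[F] V} (hg : g ∈ T.TG) : Same (mapT T g) T := fun a => by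
  obtain ⟨α, β, e⟩ := hg
  refine ⟨cN β a, T.lext fun r u => ?_⟩
  have : g⁻¹ (T.τ r u) = T.τ (α⁻¹ r) (β⁻¹ u) := by
    rw [le_inv_apply, LinearEquiv.symm_apply_eq, e]; simp
  simp [psi_mapT, cN_apply, this, e]

variable [FiniteDimensional F U] [FiniteDimensional F R] [Nontrivial R]

theorem Same.symm (h : Same T T') : Same T' T := fun a => by
  have := T.finite
  have h1 : LinearMap.range (psi T).toLinearMap = LinearMap.range (psi T').toLinearMap :=
    Submodule.eq_of_le_of_finrank_eq (by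
      rintro _ ⟨a, rfl⟩
      obtain ⟨a', e⟩ := h a
      exact ⟨a', e.symm⟩) (by
      rw [LinearMap.finrank_range_of_inj (psi_injective T),
        LinearMap.finrank_range_of_inj (psi_injective T')])
  obtain ⟨a', e⟩ : psi T' a ∈ LinearMap.range (psi T).toLinearMap := h1 ▸ ⟨a, rfl⟩
  exact ⟨a', e.symm⟩

theorem Rel.symm (h : Rel T T') : Rel T' T := h.imp Same.symm Comm.symm

theorem Rel.of_same {T'' : TS F R U V} (h : Same T T') (h' : Rel T' T'') : Rel T T'' :=
  h'.imp h.trans (Comm.of_same h)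

theorem col_eq_of_psi_eq {w : U} {φ : Dual F U} (hw : w ≠ 0) (hφ : φ ≠ 0) {a : Module.End F U}
    (e : psi T (φ.smulRight w) = psi T' a) : ∃ w', w' ≠ 0 ∧ T.col w = T'.col w' := by
  have := T.finite
  obtain ⟨u, hu⟩ := exists_apply_eq_one hφ
  obtain ⟨y, hy⟩ : ∃ y, a y ≠ 0 := by
    by_contra hc
    push Not at hc
    rw [show a = 0 from LinearMap.ext hc, map_zero, ← map_zero (psi T)] at e
    exact hw (by simpa [hu] using LinearMap.congr_fun (psi_injective T e) u)
  refine ⟨a y, hy, (Submodule.eq_of_le_of_finrank_eq ?_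
    (by rw [T.finrank_col hw, T'.finrank_col hy])).symm⟩
  rintro _ ⟨r, rfl⟩
  rw [← range_psi_e T hφ, e]
  exact ⟨T'.τ r y, by simp⟩

theorem Same.col (h : Same T T') {w : U} (hw : w ≠ 0) : ∃ w', w' ≠ 0 ∧ T.col w = T'.col w' := by
  obtain ⟨φ, hφ⟩ := exists_dual_of_ne_zero (F := F) hw 1
  obtain ⟨a, e⟩ := h (φ.smulRight w)
  exact col_eq_of_psi_eq hw (by rintro rfl; simp at hφ) e

theorem mem_TG_of_same [Nontrivial U] {g : V ≃ₗ[F] V} (h : Same (mapT T g) T) : g ∈ T.TG := by
  have key : ∀ w, ∃ w', ∀ r, g (T.τ r w) ∈ T.col w' := fun w => by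
    by_cases hw : w = 0
    · exact ⟨0, fun r => by simp [hw]⟩
    obtain ⟨w', -, e⟩ := h.col hw
    exact ⟨w', fun r => e ▸ (mapT T g).τ_mem_col r w⟩
  exact T.mem_TG_of_col (Module.finBasis F U) ⟨0, Module.finrank_pos⟩ (fun i => key _)
    fun i _ => key _

theorem Same.not_comm (hk : 2 ≤ finrank F U) (h : Same T T') : ¬ Comm T T' := fun hc => by
  have : Nontrivial U := Module.nontrivial_of_finrank_pos (R := F) (by omega)
  obtain ⟨w, hw⟩ := exists_ne (0 : U)
  obtain ⟨w', hw'⟩ := exists_notMem_span hk w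
  obtain ⟨φ, a1, a2⟩ := exists_dual_of_notMem_span hw' 1
  obtain ⟨χ, b⟩ := exists_dual_of_ne_zero (F := F) hw 1
  obtain ⟨a', e⟩ := h (χ.smulRight w')
  have h1 := (hc (φ.smulRight w) a').eq
  rw [← e, ← map_mul, ← map_mul] at h1
  have h2 := LinearMap.congr_fun (psi_injective T h1) w
  simp [a1, a2, b, hw] at h2

end Two

end H28.Wr
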