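import Mathlib
import Cfsg.Agent.Base
import Cfsg.Agent.Lib.Wr7.Basic

/-!
Invariant subalgebras of the endomorphism algebra of a tensor power.
-/

set_option autoImplicit false
set_option linter.unusedSectionVars false
set_option linter.unusedSimpArgs false

namespace H28.Wr

open Module Cfsg H97 H11.Ten

variable {F R U V : Type*} [Field F] [AddCommGroup R] [Module F R] [AddCommGroup U]
  [Module F U] [AddCommGroup V] [Module F V]

theorem scalar_of_central {x : Module.End F V} (h : ∀ y, Commute x y) : ∃ c : F, x = c • 1 := by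
  by_contra hc
  push Not at hc
  obtain ⟨u, hu⟩ := exists_notMem_of_not_scalar hc
  obtain ⟨φ, hφ⟩ := exists_dual_of_ne_zero (F := F) (u := u) (by rintro rfl; simp at hu) 1
  have := LinearMap.congr_fun (h (φ.smulRight u)).eq u
  simp only [Module.End.mul_apply, LinearMap.smulRight_apply, hφ, one_smul] at this
  exact hu (this ▸ Submodule.smul_mem _ _ (Submodule.mem_span_singleton_self u))

theorem eq_top_of_rank_one [FiniteDimensional F U] {S : Submodule F (Module.End F U)}
    (h : ∀ (w : U) (φ : Dual F U), φ.smulRight w ∈ S) : S = ⊤ := by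
  refine eq_top_iff.2 fun a _ => ?_
  let b := Module.finBasis F U
  have : a = ∑ j, (b.coord j).smulRight (a (b j)) := b.ext fun i => by
    simp [Finsupp.single_apply]
  rw [this]
  exact S.sum_mem fun j _ => h _ _

/-- A two-sided ideal of the endomorphism algebra. -/
theorem eq_top_of_ideal [FiniteDimensional F U] {S : Submodule F (Module.End F U)}
    (h1 : ∀ a, ∀ s ∈ S, a * s ∈ S) (h2 : ∀ a, ∀ s ∈ S, s * a ∈ S) {s : Module.End F U} (hs : s ∈ S)
    (hs0 : s ≠ 0) : S = ⊤ := by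
  obtain ⟨u, hu⟩ := DFunLike.ne_iff.1 hs0
  obtain ⟨χ, hχ⟩ := exists_dual_of_ne_zero (F := F) hu 1
  refine eq_top_of_rank_one fun w φ => ?_
  convert h2 (φ.smulRight u) _ (h1 (χ.smulRight w) s hs) using 1
  ext x; simp [hχ]

/-- `S` is invariant under `1 ⊗ Γ`. -/
def InvS (T : TS F R U V) (Γ : Subgroup (U ≃ₗ[F] U)) (S : Submodule F (Module.End F V)) : Prop :=
  ∀ γ ∈ Γ, ∀ x ∈ S, cN (T.opE 1 γ) x ∈ S

/-- Pure tensors can be extracted from invariant subalgebras. -/
def Ext (T : TS F R U V) (Γ : Subgroup (U ≃ₗ[F] U)) : Prop :=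
  ∀ A : Subalgebra F (Module.End F V), InvS T Γ A.toSubmodule → ∀ x ∈ A,
    (¬ ∀ a, Commute x (psi T a)) → ∃ (D : Submodule F (Module.End F U)) (e : ℕ), D ^ (e + 1) = ⊤ ∧
      ∃ s, s ≠ 0 ∧ ∀ d ∈ D, psi T d * chi T s ∈ A

theorem cN_opE_psi (T : TS F R U V) (γ : U ≃ₗ[F] U) (a : Module.End F U) :
    cN (T.opE 1 γ) (psi T a) = psi T (cN γ a) := by
  rw [cN_eq, cN_eq, TS.opE_inv, inv_one, opE_one_coe, opE_one_coe, map_mul, map_mul]

theorem cN_opE_of_comm (T : TS F R U V) (γ : U ≃ₗ[F] U) {x : Module.End F V}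
    (h : ∀ a, Commute x (psi T a)) : cN (T.opE 1 γ) x = x :=
  cN_of_commute (opE_one_coe T γ ▸ (h _).symm)

theorem exists_pow_top [Finite F] [FiniteDimensional F U] (hk : 2 ≤ finrank F U)
    {Γ : Subgroup (U ≃ₗ[F] U)} (hG : Good Γ) {D : Submodule F (Module.End F U)}
    (hD : ∀ γ ∈ Γ, ∀ d ∈ D, cN γ d ∈ D) {d : Module.End F U} (hd : d ∈ D) (hd0 : d ≠ 0)
    (hd1 : ¬ IsUnit d) : ∃ e, D ^ (e + 1) = ⊤ := by
  have : Finite (Module.End F U) := Module.finite_of_finite F
  have : Finite (Submodule F (Module.End F U)) := Finite.of_injective _ SetLike.coe_injective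
  have hnt : Nontrivial U := Module.nontrivial_of_finrank_pos (R := F) (by omega)
  obtain ⟨e, he⟩ : ∃ e, D ^ (e + 1) * D ^ (e + 1) = D ^ (e + 1) := by
    obtain ⟨a, b, hab, h⟩ : ∃ a b, a < b ∧ D ^ (a + 1) = D ^ (b + 1) := by
      obtain ⟨a, b, h1, h2⟩ := Finite.exists_ne_map_eq_of_infinite fun n : ℕ => D ^ (n + 1)
      rcases lt_or_gt_of_ne h1 with h | h
      exacts [⟨a, b, h, h2⟩, ⟨b, a, h, h2.symm⟩]
    obtain ⟨p, rfl⟩ := Nat.exists_eq_add_of_lt hab
    have h1 : ∀ k n, D ^ (a + 1 + n + k * (p + 1)) = D ^ (a + 1 + n) := fun k n => by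
      induction k with
      | zero => simp
      | succ k ih =>
        rw [show a + 1 + n + (k + 1) * (p + 1) = (a + p + 1 + 1) + (n + k * (p + 1)) by ring,
          pow_add, ← h, ← pow_add, ← ih, add_assoc (a + 1)]
    refine ⟨a + (a + 1) * p, ?_⟩
    rw [← pow_add, show a + (a + 1) * p + 1 + (a + (a + 1) * p + 1) =
      a + 1 + (a + 1) * p + (a + 1) * (p + 1) by ring, h1, add_right_comm]
  have hinv : ∀ n, ∀ γ ∈ Γ, ∀ x ∈ D ^ n, cN γ x ∈ D ^ n := fun n γ hγ x hx => by
    induction n generalizing x with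
    | zero =>
      rw [pow_zero, Submodule.mem_one] at hx ⊢
      obtain ⟨c, rfl⟩ := hx
      exact ⟨c, by simp [Algebra.algebraMap_eq_smul_one, cN_smul, cN_id]⟩
    | succ n ih =>
      rw [pow_succ] at hx ⊢
      refine Submodule.mul_induction_on hx (fun a ha b hb => ?_) fun a b ha hb => ?_
      · rw [cN_mul]; exact Submodule.mul_mem_mul (ih a ha) (hD γ hγ b hb)
      · rw [cN_add]; exact Submodule.add_mem _ ha hb
  have alg : ∀ W : Submodule F (Module.End F U), W * W ≤ W → (∀ γ ∈ Γ, ∀ x ∈ W, cN γ x ∈ W) →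
      (∀ x ∈ W, ∃ c : F, x = c • LinearMap.id) ∨ ∀ a, ∃ x ∈ W, ∃ c : F, a = x + c • 1 :=
    fun W h1 h2 => by
    let A : Subalgebra F (Module.End F U) :=
      { carrier := {a | ∃ x ∈ W, ∃ c : F, a = x + c • 1}
        mul_mem' := by
          rintro _ _ ⟨x, hx, c, rfl⟩ ⟨y, hy, c', rfl⟩
          exact ⟨x * y + c' • x + c • y, W.add_mem (W.add_mem (h1 (Submodule.mul_mem_mul hx hy))
            (W.smul_mem _ hx)) (W.smul_mem _ hy), c * c', by
            simp [mul_add, add_mul, smul_smul, mul_comm]; abel⟩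
        add_mem' := by
          rintro _ _ ⟨x, hx, c, rfl⟩ ⟨y, hy, c', rfl⟩
          exact ⟨x + y, W.add_mem hx hy, c + c', by rw [add_smul]; abel⟩
        algebraMap_mem' := fun c => ⟨0, W.zero_mem, c, by simp [Algebra.algebraMap_eq_smul_one]⟩ }
    by_cases h : ∀ x ∈ W, ∃ c : F, x = c • LinearMap.id
    · exact Or.inl h
    push Not at h
    obtain ⟨x, hx, h⟩ := h
    have := hG A (by
      rintro γ hγ _ ⟨x, hx, c, rfl⟩
      exact ⟨cN γ x, h2 γ hγ x hx, c, by
        change cN γ _ = _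
        rw [cN_add, cN_smul, cN_id]⟩) x ⟨x, hx, 0, by simp⟩ h
    exact Or.inr fun a => (this ▸ Algebra.mem_top : a ∈ A)
  obtain ⟨w, hw⟩ := exists_ne (0 : U)
  obtain ⟨w', hw'⟩ := exists_notMem_span hk w
  obtain ⟨φ, a1, a2⟩ := exists_dual_of_notMem_span hw' 1
  have ideal : ∀ W : Submodule F (Module.End F U), W * W ≤ W →
      (∀ a, ∃ x ∈ W, ∃ c : F, a = x + c • 1) → W = ⊤ := fun W h1 h2 => by
    obtain ⟨x, hx, c, e⟩ := h2 (φ.smulRight w)
    refine eq_top_of_ideal (fun a s hs => ?_) (fun a s hs => ?_) hx fun h0 => ?_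
    · obtain ⟨y, hy, c', rfl⟩ := h2 a
      rw [add_mul, smul_mul_assoc, one_mul]
      exact W.add_mem (h1 (Submodule.mul_mem_mul hy hs)) (W.smul_mem _ hs)
    · obtain ⟨y, hy, c', rfl⟩ := h2 a
      rw [mul_add, mul_smul_comm, mul_one]
      exact W.add_mem (h1 (Submodule.mul_mem_mul hs hy)) (W.smul_mem _ hs)
    · have := LinearMap.congr_fun e w'
      simp only [h0, LinearMap.smulRight_apply, a2, one_smul, zero_add, LinearMap.smul_apply,
        Module.End.one_apply] at this
      have h3 := congrArg φ this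
      simp only [a1, map_smul, a2, smul_eq_mul, mul_one] at h3
      exact hw (by simpa [← h3] using this)
  rcases alg _ he.le (hinv _) with h | h
  swap
  · exact ⟨e, ideal _ he.le h⟩
  exfalso
  have h1 : ∀ y ∈ D ^ e, d * y = 0 := fun y hy => by
    obtain ⟨c, hc⟩ := h (d * y) (pow_succ' D (n := e) ▸ Submodule.mul_mem_mul hd hy)
    by_contra h0
    have hc0 : c ≠ 0 := by rintro rfl; exact h0 (by simpa using hc)
    refine hd1 (IsUnit.of_mul_eq_one (c⁻¹ • y) ?_)
    rw [mul_smul_comm, hc, smul_smul, inv_mul_cancel₀ hc0, one_smul]; rfl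
  have h2 : ∀ n, ¬ ∀ y ∈ D ^ n, d * y = 0 := fun n => by
    induction n with
    | zero => exact fun h => hd0 (by simpa using h 1 (by simp))
    | succ n ih =>
      intro h
      let Z : Submodule F (Module.End F U) :=
        { carrier := {x | ∀ y ∈ D ^ (n + 1), x * y = 0}
          add_mem' := fun ha hb y hy => by rw [add_mul, ha y hy, hb y hy, add_zero]
          zero_mem' := fun y _ => zero_mul y
          smul_mem' := fun c x hx y hy => by rw [smul_mul_assoc, hx y hy, smul_zero] }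
      have hZ : Z * Z ≤ Z := Submodule.mul_le.2 fun a _ b hb y hy => by
        rw [mul_assoc, hb y hy, mul_zero]
      rcases alg Z hZ (fun γ hγ x hx y hy => by
        rw [← cN_cN_inv γ y, ← cN_mul, hx _ (hinv _ _ (Γ.inv_mem hγ) y hy), cN_zero]) with h' | h'
      · obtain ⟨c, hc⟩ := h' d h
        refine hd1 (IsUnit.of_mul_eq_one (c⁻¹ • 1) ?_)
        rw [hc, mul_smul_comm, mul_one, smul_smul,
          inv_mul_cancel₀ (by rintro rfl; simp [hd0] at hc), one_smul]; rfl
      · have h3 : (1 : Module.End F U) ∈ Z := ideal Z hZ h' ▸ Submodule.mem_top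
        exact ih fun y hy => by
          simpa using h3 _ (pow_succ' D (n := n) ▸ Submodule.mul_mem_mul hd hy)
  exact h2 e h1

theorem ext_of_good [Finite F] [FiniteDimensional F U] (hk : 2 ≤ finrank F U) {T : TS F R U V}
    {Γ : Subgroup (U ≃ₗ[F] U)} (hG : Good Γ)
    (h : ∀ A : Subalgebra F (Module.End F V), InvS T Γ A.toSubmodule → ∀ x ∈ A,
      (¬ ∀ a, Commute x (psi T a)) →
        ∃ d s, d ≠ 0 ∧ ¬ IsUnit d ∧ s ≠ 0 ∧ psi T d * chi T s ∈ A) : Ext T Γ := by
  intro A hA x hx hx'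
  obtain ⟨d, s, h1, h2, h3, h4⟩ := h A hA x hx hx'
  let D : Submodule F (Module.End F U) := A.toSubmodule.comap
    (LinearMap.mulRight F (chi T s) ∘ₗ (psi T).toLinearMap)
  obtain ⟨e, he⟩ := exists_pow_top hk hG (D := D) (fun γ hγ d hd => by
    have := hA γ hγ _ hd
    change cN _ (psi T d * chi T s) ∈ _ at this
    rwa [cN_mul, cN_opE_psi, cN_opE_of_comm T γ fun a => (commute_psi_chi T a s).symm] at this)
    (d := d) h4 h1 h2
  exact ⟨D, e, he, s, h3, fun d hd => hd⟩

variable {ι : Type*} [Fintype ι] [DecidableEq ι]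

/-- A family of commuting factors generating the endomorphism algebra. -/
structure Multi (T : ι → TS F R U V) : Prop where
  comm : ∀ i j, i ≠ j → Comm (T i) (T j)
  gen : ∀ A : Subalgebra F (Module.End F V), (∀ i a, psi (T i) a ∈ A) → A = ⊤

namespace Multi

variable {T : ι → TS F R U V} (h : Multi T)
include h

theorem scalar {x : Module.End F V} (hx : ∀ i a, Commute x (psi (T i) a)) : ∃ c : F, x = c • 1 := by
  have := h.gen (Subalgebra.centralizer F {x}) fun i a => by
    rw [Subalgebra.mem_centralizer_iff]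
    rintro _ rfl
    exact hx i a
  refine scalar_of_central fun y => ?_
  have hy : y ∈ Subalgebra.centralizer F {x} := this ▸ Algebra.mem_top
  exact (Subalgebra.mem_centralizer_iff F).1 hy x rfl

variable [FiniteDimensional F U] [Nontrivial R] (hk : 2 ≤ finrank F U) {Γ : Subgroup (U ≃ₗ[F] U)}
  (hE : ∀ i, Ext (T i) Γ)
include hk hE

/-- An invariant subalgebra is scalar or contains a factor. -/
theorem main (S : Finset ι) (A : Subalgebra F (Module.End F V))
    (h1 : ∀ i ∉ S, ∀ x ∈ A, ∀ a, Commute x (psi (T i) a))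
    (h2 : ∀ i ∈ S, InvS (T i) Γ A.toSubmodule) :
    (∀ x ∈ A, ∃ c : F, x = c • 1) ∨ ∃ i ∈ S, ∀ a, psi (T i) a ∈ A := by
  have hnt : Nontrivial U := Module.nontrivial_of_finrank_pos (R := F) (by omega)
  induction S using Finset.strongInduction generalizing A with
  | H S ih =>
  by_cases h0 : ∀ x ∈ A, ∀ i a, Commute x (psi (T i) a)
  · exact Or.inl fun x hx => h.scalar (h0 x hx)
  push Not at h0
  obtain ⟨x, hx, i, a₀, ha₀⟩ := h0
  have hi : i ∈ S := by_contra fun hc => ha₀ (h1 i hc x hx a₀)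
  have Q : ∀ J : Submodule F (Module.End F V), J * J ≤ J →
      (∀ j ∉ S.erase i, ∀ x ∈ J, ∀ a, Commute x (psi (T j) a)) →
      (∀ j ∈ S.erase i, InvS (T j) Γ J) → ∀ y ∈ J, y ≠ 0 → (1 : Module.End F V) ∈ J := by
    intro J a1 a2 a3 y hy hy0
    let B : Subalgebra F (Module.End F V) :=
      { carrier := {a | ∃ x ∈ J, ∃ c : F, a = x + c • 1}
        mul_mem' := by
          rintro _ _ ⟨x, hx, c, rfl⟩ ⟨y, hy, c', rfl⟩
          exact ⟨x * y + c' • x + c • y, J.add_mem (J.add_mem (a1 (Submodule.mul_mem_mul hx hy))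
            (J.smul_mem _ hx)) (J.smul_mem _ hy), c * c', by
            simp [mul_add, add_mul, smul_smul, mul_comm]; abel⟩
        add_mem' := by
          rintro _ _ ⟨x, hx, c, rfl⟩ ⟨y, hy, c', rfl⟩
          exact ⟨x + y, J.add_mem hx hy, c + c', by rw [add_smul]; abel⟩
        algebraMap_mem' := fun c => ⟨0, J.zero_mem, c, by simp [Algebra.algebraMap_eq_smul_one]⟩ }
    rcases ih _ (Finset.erase_ssubset hi) B (by
      rintro j hj _ ⟨x, hx, c, rfl⟩ a
      exact (a2 j hj x hx a).add_left ((Commute.one_left _).smul_left c)) (by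
      rintro j hj γ hγ _ ⟨x, hx, c, rfl⟩
      exact ⟨_, a3 j hj γ hγ x hx, c, by rw [cN_add, cN_smul, cN_id]⟩) with b | ⟨j, -, b⟩
    · obtain ⟨c, rfl⟩ := b y ⟨y, hy, 0, by simp⟩
      have hc : c ≠ 0 := by rintro rfl; simp at hy0
      simpa [smul_smul, hc] using J.smul_mem c⁻¹ hy
    · obtain ⟨w, hw⟩ := exists_ne (0 : U)
      obtain ⟨w', hw'⟩ := exists_notMem_span hk w
      obtain ⟨φ, c1, c2⟩ := exists_dual_of_notMem_span hw' 1
      obtain ⟨z, hz, c, e⟩ := b (φ.smulRight w)
      have := eq_top_of_ideal (S := J.comap (psi (T j)).toLinearMap) (fun a s hs => by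
        obtain ⟨y, hy, c', e⟩ := b a
        change psi (T j) (a * s) ∈ J
        rw [map_mul, e, add_mul, smul_mul_assoc, one_mul]
        exact J.add_mem (a1 (Submodule.mul_mem_mul hy hs)) (J.smul_mem _ hs)) (fun a s hs => by
        obtain ⟨y, hy, c', e⟩ := b a
        change psi (T j) (s * a) ∈ J
        rw [map_mul, e, mul_add, mul_smul_comm, mul_one]
        exact J.add_mem (a1 (Submodule.mul_mem_mul hs hy)) (J.smul_mem _ hs))
        (s := φ.smulRight w - c • 1) (by
          change psi (T j) _ ∈ J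
          rw [map_sub, e, map_smul, map_one, add_sub_cancel_right]; exact hz) fun h0 => by
        have := LinearMap.congr_fun h0 w'
        simp only [LinearMap.sub_apply, LinearMap.smulRight_apply, c2, one_smul,
          LinearMap.smul_apply, Module.End.one_apply, LinearMap.zero_apply, sub_eq_zero] at this
        have h3 := congrArg φ this
        simp only [c1, map_smul, c2, smul_eq_mul, mul_one] at h3
        exact hw (by simpa [← h3] using this)
      have h4 : (1 : Module.End F U) ∈ J.comap (psi (T j)).toLinearMap := this ▸ Submodule.mem_top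
      simpa using h4
  obtain ⟨D, e, he, s, hs0, hs⟩ := hE i A (h2 i hi) x hx fun hc => ha₀ (hc a₀)
  let C : ℕ → Submodule F (Module.End F V) := fun n =>
    { carrier := {c | (∀ a, Commute c (psi (T i) a)) ∧ ∀ d ∈ D ^ (n + 1), psi (T i) d * c ∈ A}
      add_mem' := fun ha hb => ⟨fun a => (ha.1 a).add_left (hb.1 a), fun d hd => by
        rw [mul_add]; exact A.add_mem (ha.2 d hd) (hb.2 d hd)⟩
      zero_mem' := ⟨fun a => Commute.zero_left _, fun d _ => by rw [mul_zero]; exact A.zero_mem⟩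
      smul_mem' := fun c x hx => ⟨fun a => (hx.1 a).smul_left c, fun d hd => by
        rw [mul_smul_comm]; exact A.smul_mem (hx.2 d hd) c⟩ }
  have hD : ∀ n, D ^ (n + 1) = ⊥ → False := fun n hn => by
    have : ∀ m, D ^ (n + 1 + m) = ⊥ := fun m => by rw [pow_add, hn, Submodule.bot_mul]
    have h3 : ∀ m, D ^ ((e + 1) * m) = ⊤ ^ m := fun m => by rw [pow_mul, he]
    have h4 := h3 (n + 1)
    rw [show (e + 1) * (n + 1) = n + 1 + e * (n + 1) by ring, this] at h4
    have h5 : (1 : Module.End F U) ∈ (⊤ : Submodule F (Module.End F U)) ^ (n + 1) := by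
      simpa using Submodule.pow_mem_pow (⊤ : Submodule F (Module.End F U)) (x := 1)
        Submodule.mem_top (n + 1)
    rw [← h4] at h5
    simp at h5
  have c1 : ∀ n, ∀ j ∉ S.erase i, ∀ c ∈ C n, ∀ a, Commute c (psi (T j) a) := fun n j hj c hc a => by
    by_cases hji : j = i
    · exact hji ▸ hc.1 a
    have hjS : j ∉ S := fun e => hj (Finset.mem_erase.2 ⟨hji, e⟩)
    obtain ⟨d, hd, hd0⟩ := Submodule.exists_mem_ne_zero_of_ne_bot (hD n)
    by_contra hne
    refine mul_ne_zero_of_comm (T i) (x := c * psi (T j) a - psi (T j) a * c) (fun b =>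
      ((hc.1 b).mul_left (h.comm j i hji a b)).sub_left ((h.comm j i hji a b).mul_left (hc.1 b)))
      (sub_ne_zero.2 hne) hd0 ?_
    rw [mul_sub, ← mul_assoc, (h1 j hjS _ (hc.2 d hd) a).eq, ← mul_assoc, ← mul_assoc,
      (h.comm j i hji a d).eq, sub_self]
  have c2 : ∀ n, ∀ j ∈ S.erase i, InvS (T j) Γ (C n) := fun n j hj γ hγ c hc => by
    obtain ⟨hji, hjS⟩ := Finset.mem_erase.1 hj
    have e1 : ∀ b, cN ((T j).opE 1 γ) (psi (T i) b) = psi (T i) b := fun b =>
      cN_opE_of_comm _ _ fun a => (h.comm j i hji a b).symm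
    exact ⟨fun a => e1 a ▸ commute_cN _ (hc.1 a), fun d hd => by
      rw [← e1 d, ← cN_mul]; exact h2 j hjS γ hγ _ (hc.2 d hd)⟩
  have c3 : chi (T i) s ∈ C 0 := ⟨fun a => (commute_psi_chi _ a s).symm, by simpa using hs⟩
  have c4 : chi (T i) s ≠ 0 := fun e => hs0 (chi_injective _ (by simpa using e))
  have c5 : ∀ n m, ∀ c ∈ C n, ∀ c' ∈ C m, c * c' ∈ C (n + 1 + m) := fun n m c hc c' hc' =>
    ⟨fun a => (hc.1 a).mul_left (hc'.1 a), fun d hd => by
      rw [add_assoc, pow_add] at hd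
      refine Submodule.mul_induction_on hd (fun a ha b hb => ?_) fun a b ha hb => ?_
      · convert A.mul_mem (hc.2 a ha) (hc'.2 b hb) using 1
        rw [map_mul, mul_assoc, mul_assoc, ← mul_assoc c, (hc.1 b).eq, mul_assoc]
      · rw [map_add, add_mul]; exact A.add_mem ha hb⟩
  have c6 : ∀ n, ∃ c ∈ C n, c ≠ 0 := fun n => by
    induction n with
    | zero => exact ⟨_, c3, c4⟩
    | succ n ih =>
      by_contra hc
      push Not at hc
      obtain ⟨c, hc1, hc2⟩ := ih
      let K : Submodule F (Module.End F V) :=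
        { carrier := {y | (∀ j ∉ S.erase i, ∀ a, Commute y (psi (T j) a)) ∧ ∀ c ∈ C n, c * y = 0}
          add_mem' := fun ha hb => ⟨fun j hj a => (ha.1 j hj a).add_left (hb.1 j hj a),
            fun c hc => by rw [mul_add, ha.2 c hc, hb.2 c hc, add_zero]⟩
          zero_mem' := ⟨fun _ _ a => Commute.zero_left _, fun c _ => mul_zero c⟩
          smul_mem' := fun c x hx => ⟨fun j hj a => (hx.1 j hj a).smul_left c, fun d hd => by
            rw [mul_smul_comm, hx.2 d hd, smul_zero]⟩ }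
      have := Q K (Submodule.mul_le.2 fun a ha b hb => ⟨fun j hj x => (ha.1 j hj x).mul_left
        (hb.1 j hj x), fun c hc => by rw [← mul_assoc, ha.2 c hc, zero_mul]⟩)
        (fun j hj x hx => hx.1 j hj) (fun j hj γ hγ y hy => ⟨fun l hl a => by
          have hlj : j ≠ l := by rintro rfl; exact hl hj
          rw [← cN_opE_of_comm (T j) γ fun b => (h.comm j l hlj b a).symm]
          exact commute_cN _ (hy.1 l hl a), fun c hc => by
          have h5 := c2 n j hj γ⁻¹ (Γ.inv_mem hγ) c hc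
          rw [← cN_cN_inv ((T j).opE 1 γ) c, ← cN_mul, TS.opE_inv, inv_one, hy.2 _ h5, cN_zero]⟩)
        _ ⟨fun j hj => c1 0 j hj _ c3, fun c hc' => hc _ (c5 n 0 c hc' _ c3)⟩ c4
      exact hc2 (by simpa using this.2 c hc1)
  obtain ⟨c, c7, c8⟩ := c6 e
  have c9 := Q (C e) (Submodule.mul_le.2 fun a ha b hb => ⟨(c5 e e a ha b hb).1, fun d _ =>
    (c5 e e a ha b hb).2 d (by
      rw [add_assoc, pow_add, he]
      simpa using Submodule.mul_mem_mul (Submodule.mem_top (x := d))
        (Submodule.mem_top (x := (1 : Module.End F U))))⟩) (c1 e) (c2 e) c c7 c8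
  exact Or.inr ⟨i, hi, fun a => by simpa using c9.2 a (he ▸ Submodule.mem_top)⟩

end Multi

end H28.Wr
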