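import Mathlib
import Cfsg.Agent.Base
import Cfsg.Agent.Lib.Wr7.Inv

/-!
Overgroups of a tensor power of special linear groups: levels and columns.
-/

set_option autoImplicit false
set_option linter.unusedSectionVars false
set_option linter.unusedSimpArgs false

namespace H28.Wr

open Module Cfsg H97 H11.Ten H11.Ten.TS

variable {F R U V : Type*} [Field F] [AddCommGroup R] [Module F R] [AddCommGroup U]
  [Module F U] [AddCommGroup V] [Module F V] {T T' : TS F R U V} {M : Subgroup (V ≃ₗ[F] V)}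

theorem full_of_cyc {ι : Type*} {r : ι → ι → Prop}
    (ht : ∀ i j l, i ≠ j → j ≠ l → i ≠ l → r i j → r j l → r i l)
    (hc : ∀ i j l, i ≠ j → j ≠ l → i ≠ l → r i j → r j l) {i j : ι} (hij : i ≠ j) (h : r i j)
    (l : ι) (hl : l ≠ j) : r l j := by
  by_cases hi : l = i
  · exact hi ▸ h
  exact ht l i j hi hij hl (hc j l i hl.symm hi hij.symm (hc i j l hij hl.symm (Ne.symm hi) h)) h

/-- Three-cycles of the factors. -/
def Cyc {ι : Type*} (T : ι → TS F R U V) (M : Subgroup (V ≃ₗ[F] V)) : Prop :=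
  ∀ i j l, i ≠ j → j ≠ l → i ≠ l → ∃ g ∈ M, (∀ a, cN g (psi (T i) a) = psi (T j) a) ∧
    ∀ a, cN g (psi (T j) a) = psi (T l) a

theorem cN_sq {g : V ≃ₗ[F] V} {n : Module.End F V} (hg : ∀ x, g x = x + n x) (hn : n * n = 0)
    (x : Module.End F V) : cN g x = x + (n * x - x * n - n * x * n) := by
  have h1 : ∀ y, g⁻¹ y = y - n y := fun y => by
    rw [le_inv_apply, LinearEquiv.symm_apply_eq, hg, map_sub, ← Module.End.mul_apply, hn]; simp
  ext y
  simp only [cN_apply, h1, hg, map_sub, LinearMap.add_apply, LinearMap.sub_apply,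
    Module.End.mul_apply]
  abel

variable (T M) in
/-- `M` contains `1 ⊗ SL`. -/
def Hyp : Prop := ∀ β ∈ SLV F U, T.opE 1 β ∈ M

variable [FiniteDimensional F R] [FiniteDimensional F U]

theorem Hyp.one (hM : Hyp T M) {w : U} {φ : Dual F U} (h : φ w = 0) :
    T.HasS M LinearMap.id w φ := by
  obtain ⟨β, hβ, e⟩ := (hasT_SLV h).elim
  refine ⟨T.opE 1 β, hM β hβ, fun x => ?_⟩
  have : (T.opE 1 β : V →ₗ[F] V) = 1 + T.nS LinearMap.id w φ :=
    T.lext fun u w => by simp [e, nS_apply]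
  exact LinearMap.congr_fun this x

theorem Hyp.has (hM : Hyp T M) {w : U} {φ : Dual F U} (h : φ w = 0) :
    Has M fun x => x + psi T (φ.smulRight w) x := (hM.one h).congr fun x => by simp [psi_e]

theorem Hyp.map (hM : Hyp T M) {g : V ≃ₗ[F] V} (hg : g ∈ M) : Hyp (mapT T g) M := fun β hβ => by
  rw [opE_mapT]; exact M.mul_mem (M.mul_mem hg (hM β hβ)) (M.inv_mem hg)

theorem Hyp.all (hM : Hyp T M) (hb : 3 ≤ finrank F U) {s : R →ₗ[F] R} {w : U}
    {φ : Dual F U} (h : T.HasS M s w φ) (hw0 : w ≠ 0) (hφ0 : φ ≠ 0) (hw : φ w = 0) (w' : U)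
    (φ' : Dual F U) (hw' : φ' w' = 0) : T.HasS M s w' φ' := by
  have step1 : ∀ (w : U) (φ : Dual F U), T.HasS M s w φ → φ ≠ 0 → φ w = 0 → ∀ φ' : Dual F U,
      φ' w = 0 → T.HasS M s w φ' := by
    intro w φ h hφ0 hw
    have key : ∀ φ' : Dual F U, φ' w = 0 → φ ∉ F ∙ φ' → T.HasS M s w φ' := fun φ' h1 h2 => by
      obtain ⟨x, hx, hx'⟩ := exists_ker_apply_eq_one h2
      exact h.comm (hM.one hx) hw hx h1 hx'
    intro φ' h1
    obtain ⟨x, hx⟩ := exists_apply_eq_one hφ0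
    obtain ⟨χ, hχ0, hχ1, hχ2⟩ := exists_dual_two hb w x
    have h3 : ∀ c : F, φ ∉ F ∙ (c • φ + χ) := fun c hc => by
      obtain ⟨d, hd⟩ := Submodule.mem_span_singleton.1 hc
      have h4 : d * c = 1 := by simpa [hx, hχ2] using LinearMap.congr_fun hd x
      rw [smul_add, smul_smul, h4, one_smul, add_eq_left, smul_eq_zero] at hd
      exact hχ0 (hd.resolve_left (left_ne_zero_of_mul_eq_one h4))
    by_cases h2 : φ ∈ F ∙ φ'
    · obtain ⟨d, hd⟩ := Submodule.mem_span_singleton.1 h2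
      have hd0 : d ≠ 0 := by rintro rfl; exact hφ0 (by simpa using hd.symm)
      have h5 := (key _ (by simp [hw, hχ1]) (h3 d⁻¹)).sub_φ (key _ (by simp [hχ1]) (h3 0))
        (by simp [hw, hχ1]) (by simp [hχ1])
      convert h5 using 1
      rw [← hd]; simp [smul_smul, hd0]
    · exact key φ' h1 h2
  have step2 : ∀ (w : U), w ≠ 0 → (∀ φ : Dual F U, φ w = 0 → T.HasS M s w φ) → ∀ (w' : U)
      (φ : Dual F U), φ w = 0 → φ w' = 0 → T.HasS M s w' φ := by
    intro w _ h w' φ h1 h2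
    by_cases h3 : w ∈ F ∙ w'
    · obtain ⟨d, rfl⟩ := Submodule.mem_span_singleton.1 h3
      have hd0 : d ≠ 0 := by rintro rfl; simp at *
      have := (h (d⁻¹ • φ) (by simp [h2])).smul_w
      simpa [smul_smul, hd0] using this
    · obtain ⟨χ, hχ, hχ'⟩ := exists_dual_of_notMem_span h3 1
      exact (hM.one hχ).comm (h φ h1) hχ h1 h2 hχ'
  obtain ⟨χ, hχ0, hχ1, hχ2⟩ := exists_dual_two hb w w'
  exact step1 w' χ (step2 w hw0 (step1 w φ h hφ0 hw) w' χ hχ1 hχ2) hχ0 hχ2 φ' hw'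

/-- The level algebra on the first factor. -/
def Hyp.levA (hM : Hyp T M) (hb : 3 ≤ finrank F U) : Subalgebra F (Module.End F R) where
  carrier := T.lev M
  mul_mem' {s s'} h h' := by
    have : Nontrivial U := Module.nontrivial_of_finrank_pos (R := F) (by omega)
    obtain ⟨w, hw⟩ := exists_ne (0 : U)
    obtain ⟨w', hw'⟩ := exists_notMem_span (F := F) (by omega) w
    obtain ⟨φ, hφ, hφ'⟩ := exists_dual_of_notMem_span hw' 1
    obtain ⟨χ, hχ0, hχ1, hχ2⟩ := exists_dual_two hb w w'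
    exact hM.all hb ((h w φ hφ).comm (h' w' χ hχ2) hφ hχ2 hχ1 hφ') hw hχ0 hχ1
  add_mem' := (T.lev M).add_mem
  algebraMap_mem' c := by
    rw [Algebra.algebraMap_eq_smul_one]
    exact (T.lev M).smul_mem c fun w φ h => hM.one h

theorem mem_Lev (hM : Hyp T M) (hb : 3 ≤ finrank F U) {c : Module.End F V} :
    c ∈ (hM.levA hb).map (chi T) ↔ (∀ a, Commute c (psi T a)) ∧
      ∀ (w : U) (φ : Dual F U), φ w = 0 → Has M fun x => x + c (psi T (φ.smulRight w) x) := by
  have : Nontrivial U := Module.nontrivial_of_finrank_pos (R := F) (by omega)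
  constructor
  · rintro ⟨s, hs, rfl⟩
    exact ⟨fun a => (commute_psi_chi T a s).symm, fun w φ h =>
      (hs w φ h).congr fun x => by simp [psi_e]⟩
  · rintro ⟨h1, h2⟩
    obtain ⟨s, rfl⟩ := exists_chi_of_comm T h1
    exact ⟨s, fun w φ h => (h2 w φ h).congr fun x => by simp [psi_e], rfl⟩

theorem Lev_conj (hM : Hyp T M) (hM' : Hyp T' M) (hb : 3 ≤ finrank F U) {g : V ≃ₗ[F] V}
    (hg : g ∈ M) (e : ∀ a, cN g (psi T a) = psi T' a) {c : Module.End F V}
    (hc : c ∈ (hM.levA hb).map (chi T)) : cN g c ∈ (hM'.levA hb).map (chi T') := by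
  rw [mem_Lev] at hc ⊢
  exact ⟨fun a => e a ▸ commute_cN g (hc.1 a), fun w φ h =>
    ((hc.2 w φ h).conj hg).congr fun x => by simp [← e, cN_apply]⟩

theorem SLV_le_of_top (hb : 3 ≤ finrank F U) (h3 : ∀ s, s ∈ T.lev M) : SLV F V ≤ M := by
  have := T.finite
  refine SLV_le_of_cen (T.eq_top fun u w θ hθ => ?_)
  by_cases hu0 : u = 0
  · simpa [hu0] using hasT_zero_left θ
  have h4 : ∀ (ψ' : Dual F R) (φ : Dual F U), ψ' u = 0 →
      HasT M (T.τ u w) (ψ' ∘ₗ T.cW φ) := fun ψ' φ hψ' => by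
    by_cases hφ : φ w = 0
    · exact (h3 _ w φ hφ).hasT
    obtain ⟨w', hw', h5, -⟩ := exists_ker_two hb φ φ
    have h6 : w' ∉ F ∙ w := fun hc => by
      obtain ⟨d, rfl⟩ := Submodule.mem_span_singleton.1 hc
      have : d = 0 := by simpa [hφ] using h5
      exact hw' (by simp [this])
    obtain ⟨φ₁, h7, h8⟩ := exists_dual_of_notMem_span h6 1
    obtain ⟨χ, hχ⟩ := exists_dual_of_ne_zero (F := F) hu0 1
    simpa [h8, hχ] using (h3 (χ.smulRight u) w φ₁ h7).hasT.comm
      (h3 (ψ'.smulRight u) w' φ h5).hasT (by simp [h7]) (by simp [h5]) (by simp [hψ'])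
  obtain ⟨χ, hχ⟩ := exists_dual_of_ne_zero (F := F) hu0 1
  let b := Module.finBasis F U
  let θ' : Dual F V := θ - χ ∘ₗ T.cW (θ ∘ₗ T.τ u)
  have h6 : θ' = ∑ j, (θ' ∘ₗ T.τ.flip (b j)) ∘ₗ T.cW (b.coord j) := by
    ext x
    conv_lhs => rw [T.eq_sum b x, map_sum]
    simp
  have h7 : ∀ w', θ' (T.τ u w') = 0 := fun w' => by simp [θ', hχ]
  have h8 : HasT M (T.τ u w) θ' := by
    rw [h6]
    refine (Finset.sum_induction _ (fun θ : Dual F V => HasT M (T.τ u w) θ ∧ θ (T.τ u w) = 0)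
      (fun x y hx hy => ⟨hx.1.add_right hy.1 hx.2, by simp [hx.2, hy.2]⟩)
      ⟨hasT_zero_right _, rfl⟩ fun j _ => ⟨h4 _ _ (h7 _), by simp [h7]⟩).1
  simpa [θ'] using h8.add_right (h3 (χ.smulRight u) w (θ ∘ₗ T.τ u) hθ).hasT (h7 w)

theorem sq_eq_top (hb : 3 ≤ finrank F U) {D : Submodule F (Module.End F U)}
    (h : ∀ (w : U) (φ : Dual F U), φ w = 0 → φ.smulRight w ∈ D) : D * D = ⊤ := by
  refine eq_top_of_rank_one fun w φ => ?_
  by_cases hw : w = 0
  · simp [hw]
  obtain ⟨χ, hχ⟩ := exists_dual_of_ne_zero (F := F) hw 1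
  obtain ⟨w', h1, h2, h3⟩ := exists_ker_two hb φ χ
  have h6 : w' ∉ F ∙ w := fun hc => by
    obtain ⟨d, rfl⟩ := Submodule.mem_span_singleton.1 hc
    have : d = 0 := by simpa [hχ] using h3
    exact h1 (by simp [this])
  obtain ⟨φ₁, h7, h8⟩ := exists_dual_of_notMem_span h6 1
  convert Submodule.mul_mem_mul (h w φ₁ h7) (h w' φ h2) using 1
  ext x; simp [h8]

theorem ext_SL (hb : 3 ≤ finrank F U) (T : TS F R U V) : Ext T (SLV F U) := by
  intro A hA x hx hx'
  have D : ∀ (w : U) (φ : Dual F U), φ w = 0 → ∀ x ∈ A, psi T (φ.smulRight w) * x -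
      x * psi T (φ.smulRight w) - psi T (φ.smulRight w) * x * psi T (φ.smulRight w) ∈ A :=
    fun w φ h x hx => by
    obtain ⟨β, hβ, e⟩ := (hasT_SLV h).elim
    have h1 := hA β hβ x hx
    rw [cN_sq (n := psi T (φ.smulRight w)) (fun y => by
      rw [opE_one_apply, show (β : Module.End F U) = 1 + φ.smulRight w from LinearMap.ext e]; simp)
      (by rw [← map_mul]; convert map_zero (psi T); ext y; simp [h])] at h1
    simpa using A.sub_mem h1 hx
  obtain ⟨w, φ, h1, h2⟩ : ∃ (w : U) (φ : Dual F U), φ w = 0 ∧ co T φ w x ≠ 0 := by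
    by_contra hc
    push Not at hc
    exact hx' (comm_of_co T (by omega) hc)
  have hw : w ≠ 0 := by rintro rfl; exact h2 (by ext; simp [co_apply])
  have hφ : φ ≠ 0 := by rintro rfl; exact h2 (by ext; simp [co_apply])
  refine ⟨A.toSubmodule.comap (LinearMap.mulRight F (chi T (co T φ w x)) ∘ₗ (psi T).toLinearMap),
    1, ?_, _, h2, fun d hd => hd⟩
  rw [pow_succ, pow_one]
  refine sq_eq_top hb ?_
  set s := co T φ w x with hs
  have E : ∀ (u y : U) (χ ψ : Dual F U), χ u = 0 → psi T (ψ.smulRight y) * chi T s ∈ A →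
      psi T ((χ y • ψ).smulRight u - (ψ u • χ).smulRight y - ((χ y * ψ u) • χ).smulRight u) *
        chi T s ∈ A := fun u y χ ψ h h' => by
    convert D u χ h _ h' using 1
    refine T.lext fun r z => ?_
    simp [smul_smul]
    module
  obtain ⟨χ₀, hχ₀⟩ := exists_dual_of_ne_zero (F := F) hw 1
  obtain ⟨w', a1, a2, a3⟩ := exists_ker_two hb φ χ₀
  have a4 : w' ∉ F ∙ w := fun hc => by
    obtain ⟨d, rfl⟩ := Submodule.mem_span_singleton.1 hc
    have : d = 0 := by simpa [hχ₀] using a3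
    exact a1 (by simp [this])
  obtain ⟨χ, a5, a6⟩ := exists_dual_of_notMem_span a4 1
  have b1 : psi T (φ.smulRight w) * chi T s ∈ A := by
    convert A.neg_mem (D w χ a5 _ (D w' φ a2 _ (D w φ h1 x hx))) using 1
    rw [← psi_mul_mul_psi]
    ext y
    simp [psi_e, h1, a2, a5, a6]
  have step1 : ∀ (w : U) (φ : Dual F U), psi T (φ.smulRight w) * chi T s ∈ A → φ ≠ 0 → φ w = 0 →
      ∀ φ' : Dual F U, φ' w = 0 → psi T (φ'.smulRight w) * chi T s ∈ A := by
    intro w φ h hφ0 hw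
    have key : ∀ φ' : Dual F U, φ' w = 0 → φ ∉ F ∙ φ' → psi T (φ'.smulRight w) * chi T s ∈ A :=
      fun φ' h1 h2 => by
      obtain ⟨x, hx, hx'⟩ := exists_ker_apply_eq_one h2
      simpa [h1, hx'] using A.neg_mem (E x w φ' φ hx h)
    intro φ' h1
    by_cases h2 : φ ∈ F ∙ φ'
    · obtain ⟨d, hd⟩ := Submodule.mem_span_singleton.1 h2
      have hd0 : d ≠ 0 := by rintro rfl; exact hφ0 (by simpa using hd.symm)
      convert A.smul_mem h d⁻¹ using 1
      refine T.lext fun r z => ?_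
      simp [← hd, smul_smul, hd0]
    · exact key φ' h1 h2
  have step2 : ∀ (w : U) (φ : Dual F U), psi T (φ.smulRight w) * chi T s ∈ A → w ≠ 0 → ∀ w' : U,
      φ w' = 0 → psi T (φ.smulRight w') * chi T s ∈ A := by
    intro w φ h hw w' h2
    by_cases h3 : w ∈ F ∙ w'
    · obtain ⟨d, rfl⟩ := Submodule.mem_span_singleton.1 h3
      have hd0 : d ≠ 0 := by rintro rfl; simp at *
      convert A.smul_mem h d⁻¹ using 1
      refine T.lext fun r z => ?_
      simp [smul_smul, mul_comm _ d, hd0]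
    · obtain ⟨χ, hχ, hχ'⟩ := exists_dual_of_notMem_span h3 1
      simpa [h2, hχ'] using E w' w χ φ hχ h
  intro u ψ h
  obtain ⟨ρ, c1, c2, c3⟩ := exists_dual_two hb w u
  exact step1 u ρ (step2 w ρ (step1 w φ b1 hφ h1 ρ c2) hw u c3) c1 c3 ψ h

/-- All levels are scalar in a proper overgroup. -/
theorem lev_scalar {ι : Type*} [Fintype ι] [DecidableEq ι] {T : ι → TS F R U V} [Nontrivial R]
    (hm : Multi T) (hb : 3 ≤ finrank F U) (hM : ∀ i, Hyp (T i) M) (hc : Cyc T M)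
    (hne : ¬ SLV F V ≤ M) (j : ι) : ∀ s ∈ (T j).lev M, ∃ c : F, s = c • LinearMap.id := by
  have : Nontrivial U := Module.nontrivial_of_finrank_pos (R := F) (by omega)
  let L := fun j => ((hM j).levA hb).map (chi (T j))
  rcases hm.main (by omega) (fun i => ext_SL hb (T i)) (Finset.univ.erase j) (L j)
    (fun i hi x hx => by
      obtain rfl : i = j := by simpa using hi
      exact ((mem_Lev _ hb).1 hx).1)
    (fun i hi γ hγ x hx => Lev_conj (hM j) (hM j) hb (hM i γ hγ) (fun a =>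
      cN_opE_of_comm _ _ (hm.comm j i (Finset.mem_erase.1 hi).1.symm a)) hx) with h | ⟨i, hi, h⟩
  · intro s hs
    obtain ⟨c, e⟩ := h _ ⟨s, hs, rfl⟩
    exact ⟨c, chi_injective (T j) (by rw [map_smul]; exact e.trans (by rw [← map_one (chi (T j))]; rfl))⟩
  exfalso
  have h1 := full_of_cyc (r := fun i j => ∀ a, psi (T i) a ∈ L j) (fun i j l hij hjl hil h1 h2 a => by
    obtain ⟨w, hw⟩ := exists_ne (0 : U)
    obtain ⟨φ, b1, b2, -⟩ := exists_dual_two hb w w
    obtain ⟨u, hu⟩ := exists_apply_eq_one b1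
    obtain ⟨y, hy, e⟩ := ((mem_Lev _ hb).1 (h1 a)).2 w φ b2
    have c1 := hm.comm i j hij a
    have c2 := Lev_conj (hM l) (hM l) hb hy (fun b => cN_of_commute (by
      rw [show (y : Module.End F V) = 1 + psi (T i) a * psi (T j) (φ.smulRight w) from
        LinearMap.ext e]
      exact (Commute.one_left _).add_left ((hm.comm i l hil a b).mul_left (hm.comm j l hjl _ b))))
      (h2 (φ.smulRight u))
    have c3 : φ.smulRight w * φ.smulRight w = 0 := by ext; simp [b2]
    have c4 : φ.smulRight u * φ.smulRight w = 0 := by ext; simp [b2]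
    have c5 : φ.smulRight w * φ.smulRight u = φ.smulRight w := by ext; simp [hu]
    rw [cN_sq (n := psi (T i) a * psi (T j) (φ.smulRight w)) e (by
      rw [mul_assoc, ← mul_assoc (psi (T j) _), ← (c1 _).eq, mul_assoc, ← map_mul, c3]; simp),
      mul_assoc, ← map_mul, c5, ← mul_assoc, ← (c1 _).eq, mul_assoc (psi (T i) a), ← map_mul, c4,
      mul_assoc, ← mul_assoc (psi (T j) _), ← (c1 _).eq, mul_assoc, ← map_mul, c3] at c2
    have c6 := eq_top_of_ideal (S := (L l).toSubmodule.comap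
      (LinearMap.mulLeft F (psi (T i) a) ∘ₗ (psi (T j)).toLinearMap)) (fun b s hs => by
        change psi (T i) a * psi (T j) (b * s) ∈ L l
        rw [map_mul, ← mul_assoc, (c1 _).eq, mul_assoc]
        exact (L l).mul_mem (h2 b) hs) (fun b s hs => by
        change psi (T i) a * psi (T j) (s * b) ∈ L l
        rw [map_mul, ← mul_assoc]
        exact (L l).mul_mem hs (h2 b)) (s := φ.smulRight w)
      (by simpa using (L l).sub_mem c2 (h2 (φ.smulRight u))) fun h0 =>
        hw (by simpa [hu] using LinearMap.congr_fun h0 u)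
    have c7 : (1 : Module.End F U) ∈ (L l).toSubmodule.comap
      (LinearMap.mulLeft F (psi (T i) a) ∘ₗ (psi (T j)).toLinearMap) := c6 ▸ Submodule.mem_top
    simpa using c7) (fun i j l hij hjl hil h1 a => by
    obtain ⟨g, hg, e1, e2⟩ := hc i j l hij hjl hil
    exact e1 a ▸ Lev_conj (hM j) (hM l) hb hg e2 (h1 a)) (Finset.mem_erase.1 hi).1 h
  have h2 := eq_top_of_gen (T j) (S := (hM j).levA hb) fun A a1 a2 => hm.gen A fun i a => by
    by_cases hij : i = j
    · exact hij ▸ a1 a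
    obtain ⟨s, hs, e⟩ := h1 i hij a
    exact e ▸ a2 s hs
  exact hne (SLV_le_of_top (T := T j) hb fun s => (h2 ▸ Algebra.mem_top : s ∈ (hM j).levA hb))

variable (T M) in
/-- `M` contains `1 ⊗ SL` and has scalar level. -/
structure Gd : Prop where
  hyp : Hyp T M
  three : 3 ≤ finrank F U
  sc : ∀ s ∈ T.lev M, ∃ c : F, s = c • LinearMap.id

namespace Gd

variable (h : Gd T M)
include h

theorem map {g : V ≃ₗ[F] V} (hg : g ∈ M) : Gd (mapT T g) M where
  hyp := h.hyp.map hg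
  three := h.three
  sc s hs := h.sc s fun w φ hw => (Has.conj (hs w φ hw) (M.inv_mem hg)).congr fun x => by
    simp [cW_mapT]

theorem ext_col {N : V →ₗ[F] V} (hN : Has M fun x => x + N x) {w : U} (hw : w ≠ 0)
    (h1 : ∀ x, N x ∈ T.col w) (h2 : ∀ r, N (T.τ r w) = 0) :
    ∃ φ : Dual F U, φ w = 0 ∧ N = psi T (φ.smulRight w) := by
  obtain ⟨χ, hχ⟩ := exists_dual_of_ne_zero (F := F) hw 1
  have h3 : ∀ x, N x = T.τ (T.cW χ (N x)) w := fun x => by
    obtain ⟨r, hr⟩ := h1 x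
    rw [← hr]; simp [hχ]
  have h4 : ∀ y, ∃ c : F, co T χ y N = c • LinearMap.id := fun y => by
    obtain ⟨φ, a0, a1, a2⟩ := exists_dual_two h.three w y
    refine h.sc _ (h.hyp.all h.three (w := w) (φ := φ) ?_ hw a0 a1)
    refine (has_comm (B := T.nS LinearMap.id y φ) hN (h.hyp.one a2) (fun x => by rw [h3 x, h2])
      (fun x => by simp [nS_apply, a2]) fun x => by rw [h3 x]; simp [nS_apply, a1]).congr
      fun x => ?_
    rw [h3]; rfl
  choose c hc using h4
  let b := Module.finBasis F U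
  have h5 : N = psi T ((b.constr F fun j => c (b j) : Dual F U).smulRight w) :=
    T.lext fun r y => by
      have : N ∘ₗ T.τ r = psi T ((b.constr F fun j => c (b j) : Dual F U).smulRight w) ∘ₗ T.τ r :=
        b.ext fun j => by
          have := LinearMap.congr_fun (hc (b j)) r
          rw [co_apply] at this
          rw [LinearMap.comp_apply, h3, this]; simp
      exact LinearMap.congr_fun this y
  by_cases hR : ∃ r : R, r ≠ 0
  · obtain ⟨r, hr⟩ := hR
    refine ⟨_, ?_, h5⟩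
    have := h2 r
    rw [h5, psi_τ, T.τ_eq_zero] at this
    simpa [hr, hw] using this
  · push Not at hR
    exact ⟨0, rfl, T.lext fun r y => by simp [hR r]⟩

theorem ext_ker {N : V →ₗ[F] V} (hN : Has M fun x => x + N x) {φ : Dual F U} (hφ : φ ≠ 0)
    (h1 : ∀ x, T.cW φ x = 0 → N x = 0) (h2 : ∀ x, N (N x) = 0) :
    ∃ w, N = psi T (φ.smulRight w) := by
  obtain ⟨w₀, hw₀⟩ := exists_apply_eq_one hφ
  have h3 : ∀ x, N x = N (T.τ (T.cW φ x) w₀) := fun x => by
    rw [← sub_eq_zero, ← map_sub]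
    exact h1 _ (by simp [hw₀])
  have h4 : ∀ φ₁ : Dual F U, ∃ c : F, T.cW φ₁ ∘ₗ N ∘ₗ T.τ.flip w₀ = c • LinearMap.id := fun φ₁ => by
    obtain ⟨w₁, hw₁, h5, h6⟩ := exists_ker_two h.three φ φ₁
    refine h.sc _ (h.hyp.all h.three (w := w₁) (φ := φ) ?_ hw₁ hφ h5)
    refine (has_comm (A := T.nS LinearMap.id w₁ φ₁) (h.hyp.one h6) hN
      (fun x => by simp [nS_apply, h6]) h2 fun x => h1 _ (by simp [nS_apply, h5])).congr
      fun x => ?_
    rw [h3 x]; rfl
  choose c hc using h4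
  let b := Module.finBasis F U
  refine ⟨∑ j, c (b.coord j) • b j, LinearMap.ext fun x => ?_⟩
  rw [psi_e, h3, T.eq_sum b (N _), map_sum]
  refine Finset.sum_congr rfl fun j _ => ?_
  have := LinearMap.congr_fun (hc (b.coord j)) (T.cW φ x)
  simp only [LinearMap.comp_apply, LinearMap.flip_apply] at this
  simp [this]

variable [Nontrivial R]

theorem same_of_e (he : ∀ (w : U) (φ : Dual F U), φ w = 0 → ∃ a, psi T (φ.smulRight w) = psi T' a) :
    Same T T' := fun a => by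
  let A := (psi T').range.comap (psi T)
  have h1 := sq_eq_top h.three (D := A.toSubmodule) fun w φ hw => by
    obtain ⟨a, e⟩ := he w φ hw
    exact ⟨a, e.symm⟩
  have h2 : A.toSubmodule * A.toSubmodule ≤ A.toSubmodule :=
    Submodule.mul_le.2 fun a ha b hb => A.mul_mem ha hb
  obtain ⟨a', e⟩ : a ∈ A := h2 (h1 ▸ Submodule.mem_top)
  exact ⟨a', e.symm⟩

theorem comm_of_e {x : Module.End F V}
    (he : ∀ (w : U) (φ : Dual F U), φ w = 0 → Commute x (psi T (φ.smulRight w))) (a : Module.End F U) :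
    Commute x (psi T a) := by
  let A := (Subalgebra.centralizer F {x}).comap (psi T)
  have h1 := sq_eq_top h.three (D := A.toSubmodule) fun w φ hw => by
    change psi T _ ∈ Subalgebra.centralizer F {x}
    rw [Subalgebra.mem_centralizer_iff]
    rintro _ rfl
    exact he w φ hw
  have h2 : A.toSubmodule * A.toSubmodule ≤ A.toSubmodule :=
    Submodule.mul_le.2 fun a ha b hb => A.mul_mem ha hb
  have h3 : a ∈ A := h2 (h1 ▸ Submodule.mem_top)
  exact (Subalgebra.mem_centralizer_iff F).1 h3 x rfl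

theorem same_of_col (h' : Gd T' M) {w w' : U} (hw : w ≠ 0) (hw' : w' ≠ 0)
    (e : T.col w = T'.col w') : Same T T' := by
  have key : ∀ {w w' : U}, w' ≠ 0 → T.col w = T'.col w' → ∀ φ : Dual F U, φ w = 0 →
      ∃ φ' : Dual F U, φ' w' = 0 ∧ psi T (φ.smulRight w) = psi T' (φ'.smulRight w') :=
    fun {w w'} hw' e φ hφ => h'.ext_col (h.hyp.has hφ) hw'
      (fun x => e ▸ ⟨_, (psi_e T w φ x).symm⟩) fun r => by
        obtain ⟨r', hr'⟩ : T'.τ r w' ∈ T.col w := e ▸ T'.τ_mem_col r w'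
        simp [← hr', hφ]
  refine h.same_of_e fun y ψ hy => ?_
  by_cases hy0 : y = 0
  · exact ⟨0, by simp [hy0]⟩
  obtain ⟨φ, a0, a1, a2⟩ := exists_dual_two h.three w y
  obtain ⟨φ', -, b⟩ := key hw' e φ a1
  have b1 : ∀ x, T'.cW φ' x = 0 → T.cW φ x = 0 := fun x hx => by
    have := LinearMap.congr_fun b x
    rw [psi_e, psi_e, hx] at this
    simpa [T.τ_eq_zero, hw] using this
  have b2 : φ' ≠ 0 := by
    rintro rfl
    obtain ⟨u, hu⟩ := exists_apply_eq_one a0
    obtain ⟨r, hr⟩ := exists_ne (0 : R)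
    simpa [hu, hr] using b1 (T.τ r u) (by simp)
  obtain ⟨y', e'⟩ := h'.ext_ker (h.hyp.has a2) b2 (fun x hx => by simp [psi_e, b1 x hx])
    fun x => by simp [psi_e, a2]
  obtain ⟨y'', c1, c2⟩ := col_eq_of_psi_eq hy0 a0 e'
  obtain ⟨ψ', -, c3⟩ := key c1 c2 ψ hy
  exact ⟨_, c3⟩

theorem mem_TG {g : V ≃ₗ[F] V} (hg : g ∈ M) {w w' : U} (hw : w ≠ 0) (hw' : w' ≠ 0)
    (e : ∀ x ∈ T.col w, g x ∈ T.col w') : g ∈ T.TG := by
  have : Nontrivial U := ⟨⟨w, 0, hw⟩⟩
  have := T.finite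
  refine mem_TG_of_same ((h.map hg).same_of_col h hw hw' (Submodule.eq_of_le_of_finrank_eq ?_
    (by rw [finrank_col _ hw, finrank_col _ hw'])))
  rintro _ ⟨r, rfl⟩
  exact e _ ⟨r, rfl⟩

theorem mem_TG_of_comm {g : V ≃ₗ[F] V} (hg : g ∈ M) {w : U} {φ : Dual F U} (hw : w ≠ 0)
    (hφ : φ ≠ 0) (e : Commute (g : Module.End F V) (psi T (φ.smulRight w))) : g ∈ T.TG :=
  h.mem_TG hg hw hw fun x hx => by
    rw [← range_psi_e T hφ] at hx ⊢
    obtain ⟨y, rfl⟩ := hx
    exact ⟨g y, (LinearMap.congr_fun e.eq y).symm⟩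

theorem dich (h' : Gd T' M) {z : V ≃ₗ[F] V} {w : U} {φ : Dual F U} (hw : w ≠ 0) (hφ : φ ≠ 0)
    (e : ∀ x, z x = x + psi T (φ.smulRight w) x) (hz : z ∈ T'.TG) :
    Same T T' ∨ ∀ a, Commute (psi T (φ.smulRight w)) (psi T' a) := by
  have e' : (z : Module.End F V) - 1 = psi T (φ.smulRight w) := LinearMap.ext fun x => by simp [e]
  rcases dichotomy T' h.three hz (by rw [e', range_psi_e T hφ, finrank_col _ hw]) with
    ⟨a, ha⟩ | ⟨s, hs⟩
  · obtain ⟨w', a1, a2⟩ := col_eq_of_psi_eq (T' := T') hw hφ (a := a - 1)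
      (by rw [← e', ha, map_sub, map_one])
    exact Or.inl (h.same_of_col h' hw a1 a2)
  · refine Or.inr fun a => ?_
    rw [← e', hs]
    exact (commute_psi_chi T' a s).symm.sub_left (Commute.one_left _)

/-- A transvection normalises only related structures. -/
theorem ti (h' : Gd T' M) {z : V ≃ₗ[F] V} {w : U} {φ : Dual F U} (hw : w ≠ 0) (hφ : φ ≠ 0)
    (e : ∀ x, z x = x + psi T (φ.smulRight w) x) (hz : z ∈ T'.TG) : Rel T T' := by
  rcases h.dich h' hw hφ e hz with a | a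
  · exact Or.inl a
  by_cases b : Same T' T
  · exact Or.inl b.symm
  refine Or.inr fun c => h'.comm_of_e fun w' φ' b1 => ?_
  by_cases b2 : w' = 0
  · simp [b2]
  by_cases b3 : φ' = 0
  · rw [show φ'.smulRight w' = 0 by ext; simp [b3], map_zero]; exact Commute.zero_right _
  obtain ⟨z', c1, c2⟩ := h'.hyp.has b1
  refine (((h'.dich h b2 b3 c2 (h.mem_TG_of_comm c1 hw hφ ?_)).resolve_left b) c).symm
  rw [show (z' : Module.End F V) = 1 + psi T' (φ'.smulRight w') from LinearMap.ext c2]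
  exact (Commute.one_left _).add_left (a _).symm

end Gd

end H28.Wr
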