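import Mathlib
import Cfsg.Agent.Base
import Cfsg.Agent.Lib.Wr7.SL1

/-!
Overgroups of a tensor power of special linear groups: conjugate structures are related.
-/

set_option autoImplicit false
set_option linter.unusedSectionVars false
set_option linter.unusedSimpArgs false

namespace H28.Wr

open Module Cfsg H97 H11.Ten H11.Ten.TS

theorem dihedral {G : Type*} [Group G] [Finite G] {z z' : G} (hz : z * z = 1) (hz' : z' * z' = 1)
    (K : Subgroup G) (h1 : z ∈ K) (h2 : z' ∈ K) :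
    (∃ c ∈ K, c ≠ 1 ∧ Commute c z ∧ Commute c z') ∨ ∃ s ∈ K, s * s = 1 ∧ s * z * s⁻¹ = z' := by
  have i1 : z⁻¹ = z := inv_eq_of_mul_eq_one_right hz
  have i2 : z'⁻¹ = z' := inv_eq_of_mul_eq_one_right hz'
  have a1 : ∀ n : ℕ, z * (z * z') ^ n = ((z * z') ^ n)⁻¹ * z := fun n => by
    rw [← inv_pow, mul_inv_rev, i1, i2]
    exact (SemiconjBy.pow_right (show SemiconjBy z (z * z') (z' * z) by
      change _ = _
      rw [← mul_assoc, hz, mul_assoc, hz, one_mul, mul_one]) n)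
  have a2 : ∀ n : ℕ, z' * (z * z') ^ n = ((z * z') ^ n)⁻¹ * z' := fun n => by
    rw [← inv_pow, mul_inv_rev, i1, i2]
    exact (SemiconjBy.pow_right (show SemiconjBy z' (z * z') (z' * z) from
      (mul_assoc _ _ _).symm) n)
  rcases Nat.even_or_odd' (orderOf (z * z')) with ⟨j, hj | hj⟩
  · have b : ((z * z') ^ j)⁻¹ = (z * z') ^ j := inv_eq_of_mul_eq_one_right (by
      rw [← pow_add, ← two_mul, ← hj, pow_orderOf_eq_one])
    have hp := orderOf_pos (z * z')
    exact Or.inl ⟨(z * z') ^ j, K.pow_mem (K.mul_mem h1 h2) j,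
      pow_ne_one_of_lt_orderOf (by omega) (by omega), by change _ = _; rw [a1, b],
      by change _ = _; rw [a2, b]⟩
  · refine Or.inr ⟨(z * z') ^ j * z, K.mul_mem (K.pow_mem (K.mul_mem h1 h2) j) h1, ?_, ?_⟩
    · rw [mul_assoc, ← mul_assoc z, a1, ← mul_assoc, ← mul_assoc, mul_inv_cancel, one_mul, hz]
    · have b : (z * z') ^ j * (z * z') ^ j * (z * z') = 1 := by
        rw [← pow_add, ← pow_succ, ← two_mul, ← hj, pow_orderOf_eq_one]
      have c : z * ((z * z') ^ j)⁻¹ = (z * z') ^ j * z := by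
        rw [mul_inv_eq_iff_eq_mul, mul_assoc, a1, mul_inv_cancel_left]
      rw [mul_inv_rev, i1, mul_assoc _ z z, hz, mul_one, c, ← mul_assoc,
        eq_inv_of_mul_eq_one_left b, mul_inv_rev, i1, i2, mul_assoc, hz, mul_one]

variable {F R U V : Type*} [Field F] [AddCommGroup R] [Module F R] [AddCommGroup U]
  [Module F U] [AddCommGroup V] [Module F V] {T T' : TS F R U V} {M : Subgroup (V ≃ₗ[F] V)}

theorem mem_sup_span {S : Submodule F R} {a x : R} (h : x ∈ S ⊔ F ∙ a) :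
    ∃ s ∈ S, ∃ c : F, s + c • a = x := by
  obtain ⟨s, hs, y, hy, e⟩ := Submodule.mem_sup.1 h
  obtain ⟨c, hc⟩ := Submodule.mem_span_singleton.1 hy
  exact ⟨s, hs, c, hc ▸ e⟩

theorem mem_two {a b x : R} (h : x ∈ (F ∙ a) ⊔ F ∙ b) : ∃ c d : F, c • a + d • b = x := by
  obtain ⟨s, hs, d, e⟩ := mem_sup_span h
  obtain ⟨c, hc⟩ := Submodule.mem_span_singleton.1 hs
  exact ⟨c, d, hc ▸ e⟩

theorem even_of_quadratic [FiniteDimensional F R] {α : Module.End F R} {a b : F}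
    (h : ∀ r, b • α (α r) + a • α r = r) (hb : b ≠ 0) (hr : ∀ μ : F, b * μ * μ + a * μ ≠ 1) :
    Even (finrank F R) := by
  have key : ∀ n, ∀ S : Submodule F R, finrank F R - finrank F S = n → (∀ x ∈ S, α x ∈ S) →
      Even (finrank F S) → Even (finrank F R) := fun n => by
    induction n using Nat.strong_induction_on with
    | _ n ih =>
    intro S hn h1 h2
    by_cases hS : S = ⊤
    · rwa [hS, finrank_top] at h2
    obtain ⟨r, -, hr'⟩ := SetLike.exists_of_lt (lt_top_iff_ne_top.2 hS)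
    have h3 : α r ∉ S ⊔ F ∙ r := fun hc => by
      obtain ⟨s, hs, μ, e⟩ := mem_sup_span hc
      have e2 := h r
      rw [← e, map_add, map_smul, ← e] at e2
      refine hr' ((S.smul_mem_iff (sub_ne_zero.2 (hr μ).symm)).1 ?_)
      have : (1 - (b * μ * μ + a * μ)) • r = b • α s + (b * μ) • s + a • s := by
        linear_combination (norm := module) -e2
      rw [this]
      exact S.add_mem (S.add_mem (S.smul_mem _ (h1 s hs)) (S.smul_mem _ hs)) (S.smul_mem _ hs)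
    have h4 := Submodule.finrank_sup_span_singleton hr'
    have h5 := Submodule.finrank_sup_span_singleton h3
    have h6 := Submodule.finrank_le ((S ⊔ F ∙ r) ⊔ F ∙ α r)
    refine ih _ (by omega) ((S ⊔ F ∙ r) ⊔ F ∙ α r) rfl (fun x hx => ?_) (by
      rw [h5, h4]; exact h2.add even_two)
    obtain ⟨y, hy, d, e4⟩ := mem_sup_span hx
    obtain ⟨s, hs, c, e5⟩ := mem_sup_span hy
    have e1 : r ∈ (S ⊔ F ∙ r) ⊔ F ∙ α r :=
      Submodule.mem_sup_left (Submodule.mem_sup_right (Submodule.mem_span_singleton_self r))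
    have e2 : α r ∈ (S ⊔ F ∙ r) ⊔ F ∙ α r :=
      Submodule.mem_sup_right (Submodule.mem_span_singleton_self _)
    have e3 : α (α r) = b⁻¹ • (r - a • α r) := by
      rw [eq_inv_smul_iff₀ hb, eq_sub_iff_add_eq, h r]
    rw [← e4, ← e5, map_add, map_add, map_smul, map_smul, e3]
    exact Submodule.add_mem _ (Submodule.add_mem _ (Submodule.mem_sup_left (Submodule.mem_sup_left
      (h1 s hs))) (Submodule.smul_mem _ _ e2)) (Submodule.smul_mem _ _ (Submodule.smul_mem _ _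
      (Submodule.sub_mem _ e1 (Submodule.smul_mem _ _ e2))))
  exact key _ ⊥ rfl (by simp) (by simp)

variable [FiniteDimensional F R] [FiniteDimensional F U] [Nontrivial R]

/-- A quadratic element of odd order does not move a factor to a commuting one. -/
theorem commute_of_comm_map (h2 : (2 : F) ≠ 0) {z : V ≃ₗ[F] V} {N : Module.End F V}
    (e : ∀ x, z x = x + N x) (hN : N * N = 0) (h : Comm (mapT T z) T) (a : Module.End F U) :
    Commute N (psi T a) := by
  have e' : ∀ x, z⁻¹ x = x + (-N) x := fun y => by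
    rw [le_inv_apply, LinearEquiv.symm_apply_eq, e, LinearMap.neg_apply, map_add, map_neg,
      ← Module.End.mul_apply, hN]; simp
  have h1 : ∀ a b, Commute (N * psi T a - psi T a * N) (psi T b) := fun a b => by
    have a1 := h a b
    have a2 := (h.map z⁻¹).symm a b
    rw [mapT_mapT, inv_mul_cancel, mapT_one] at a2
    rw [psi_mapT, cN_sq e hN] at a1
    rw [psi_mapT, cN_sq e' (by simp [hN])] at a2
    have a3 := (a1.sub_left a2).smul_left (2 : F)⁻¹
    have a4 : N * psi T a - psi T a * N = (2 : F)⁻¹ • (psi T a + (N * psi T a - psi T a * N -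
        N * psi T a * N) - (psi T a + (-N * psi T a - psi T a * -N - -N * psi T a * -N))) := by
      rw [eq_inv_smul_iff₀ h2, two_smul]
      noncomm_ring
    exact a4 ▸ a3
  have h3 : ∀ a, a * a = a → Commute N (psi T a) := fun a ha => by
    have a1 : psi T a * psi T a = psi T a := by rw [← map_mul, ha]
    have a2 := (h1 a a).eq
    have a3 : psi T a * (N * psi T a - psi T a * N) * psi T a = 0 := by
      rw [mul_sub, sub_mul, mul_assoc, mul_assoc, a1, ← mul_assoc (psi T a) (psi T a), a1,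
        mul_assoc, sub_self]
    have a4 : psi T a * (N * psi T a - psi T a * N) = 0 := by
      rw [← a3, mul_assoc, a2, ← mul_assoc, a1]
    have a5 := a2.trans a4
    rw [sub_mul, mul_assoc, a1, sub_eq_zero] at a5
    rw [mul_sub, ← mul_assoc, ← mul_assoc, a1, sub_eq_zero] at a4
    exact a5.trans a4
  have h4 := eq_top_of_rank_one (S := ((Subalgebra.centralizer F {N}).comap (psi T)).toSubmodule)
    fun w φ => by
    have key : ∀ φ : Dual F U, φ w = 1 →
        φ.smulRight w ∈ ((Subalgebra.centralizer F {N}).comap (psi T)).toSubmodule := fun φ hφ => by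
      change psi T _ ∈ Subalgebra.centralizer F {N}
      rw [Subalgebra.mem_centralizer_iff]
      rintro _ rfl
      exact h3 _ (by ext; simp [hφ])
    by_cases hw : w = 0
    · simp [hw]
    obtain ⟨χ, hχ⟩ := exists_dual_of_ne_zero (F := F) hw 1
    convert Submodule.add_mem _ (key (φ + (1 - φ w) • χ) (by simp [hχ]))
      (Submodule.smul_mem _ (φ w - 1) (key χ hχ)) using 1
    ext x
    simp only [LinearMap.add_apply, LinearMap.smulRight_apply, LinearMap.smul_apply, smul_eq_mul]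
    module
  have h5 : a ∈ ((Subalgebra.centralizer F {N}).comap (psi T)).toSubmodule :=
    h4 ▸ Submodule.mem_top
  exact (Subalgebra.mem_centralizer_iff F).1 h5 N rfl

theorem Gd.sti (h : Gd T M) (h' : Gd T' M) {z : V ≃ₗ[F] V} (hz : z ∈ M) {w : U} {φ : Dual F U}
    (hw : w ≠ 0) (hφ : φ ≠ 0) (hφw : φ w = 0) (e : ∀ x, z x = x + psi T (φ.smulRight w) x)
    (hr : Rel (mapT T' z) T') : Rel T T' := by
  have : Nontrivial U := ⟨⟨w, 0, hw⟩⟩
  have hb := h.three
  have sq : ∀ (T : TS F R U V) (w : U) (φ : Dual F U), φ w = 0 →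
      psi T (φ.smulRight w) * psi T (φ.smulRight w) = 0 := fun T w φ h => by
    rw [← map_mul]; convert map_zero (psi T); ext y; simp [h]
  rcases hr with hr | hr
  · exact h.ti h' hw hφ e (mem_TG_of_same hr)
  by_cases h2 : (2 : F) ≠ 0
  · refine h.ti h' hw hφ e (mem_TG_of_same fun a => ⟨a, ?_⟩)
    rw [psi_mapT]
    refine cN_of_commute ?_
    rw [show (z : Module.End F V) = 1 + psi T (φ.smulRight w) from LinearMap.ext e]
    exact (Commute.one_left _).add_left (commute_of_comm_map h2 e (sq T w φ hφw) hr a)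
  push Not at h2
  have two : ∀ x : V, x + x = 0 := fun x => by rw [← two_smul F x, h2, zero_smul]
  have inv : ∀ {t : V ≃ₗ[F] V} {n : Module.End F V}, (∀ x, t x = x + n x) → n * n = 0 → t * t = 1 :=
    fun {t n} e hn => LinearEquiv.ext fun x => by
      rw [le_mul_apply, e, e, map_add, ← Module.End.mul_apply, hn, add_assoc, LinearMap.zero_apply,
        add_zero, two, add_zero]; rfl
  by_contra hc
  have key : ∀ (w' : U) (φ' : Dual F U), w' ≠ 0 → φ' ≠ 0 → φ' w' = 0 → ∀ t ∈ M,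
      (∀ x, t x = x + psi T' (φ'.smulRight w') x) → Comm (mapT T t) T := by
    intro w' φ' a1 a2 a3 t ht et
    have b1 := inv e (sq T w φ hφw)
    have b2 := inv et (sq T' w' φ' a3)
    have b3 : Commute (z * t * z⁻¹) t := LinearEquiv.toLinearMap_injective (by
      have := hr (1 + φ'.smulRight w') (1 + φ'.smulRight w')
      rw [psi_mapT, map_add, map_one, ← show (t : Module.End F V) = 1 + psi T' (φ'.smulRight w') from
        LinearMap.ext et] at this
      exact this)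
    have b4 : Commute (t * z * t⁻¹) z := by
      rw [inv_eq_of_mul_eq_one_right b1] at b3
      rw [inv_eq_of_mul_eq_one_right b2]
      change _ = _
      simpa [mul_assoc] using b3.eq.symm
    have b5 : t * z * t⁻¹ ∈ T.TG := h.mem_TG_of_comm (M.mul_mem (M.mul_mem ht hz) (M.inv_mem ht))
      hw hφ (by
        rw [show psi T (φ.smulRight w) = (z : Module.End F V) - 1 from
          LinearMap.ext fun x => by simp [e]]
        exact Commute.sub_right (congrArg LinearEquiv.toLinearMap b4.eq) (Commute.one_right _))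
    rcases (h.map ht).ti h hw hφ (fun x => by simp [psi_mapT, cN_apply, e]) b5 with b6 | b6
    · exact (hc (h'.ti h a1 a2 et (mem_TG_of_same b6)).symm).elim
    · exact b6
  obtain ⟨φ₁, c1, c2, -⟩ := exists_dual_two hb w w
  obtain ⟨u₁, c3⟩ := exists_apply_eq_one c1
  obtain ⟨φ₂, c4, c5, c6⟩ := exists_dual_two hb w u₁
  obtain ⟨t₁, d1, e1⟩ := h'.hyp.has c2
  obtain ⟨t₂, d2, e2⟩ := h'.hyp.has c5
  have i1 := inv e1 (sq T' w φ₁ c2)
  have i2 := inv e2 (sq T' w φ₂ c5)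
  have e3 : ∀ x, (t₁ * t₂) x = x + psi T' ((φ₁ + φ₂).smulRight w) x := fun x => by
    simp [e1, e2, psi_e, c2]; abel
  have i3 := inv e3 (sq T' w _ (by simp [c2, c5]))
  have k1 := key w φ₁ hw c1 c2 t₁ d1 e1
  have k2 := key w φ₂ hw c4 c5 t₂ d2 e2
  have k3 := key w (φ₁ + φ₂) hw (fun e => by simpa [c3, c6] using LinearMap.congr_fun e u₁)
    (by simp [c2, c5]) _ (M.mul_mem d1 d2) e3
  have k12 : Comm (mapT T t₂) (mapT T t₁) := by
    have := k3.map t₁
    rwa [mapT_mapT, ← mul_assoc, i1, one_mul] at this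
  have k13 : Comm (mapT T (t₁ * t₂)) (mapT T t₁) := k2.map t₁
  have k23 : Comm (mapT T (t₁ * t₂)) (mapT T t₂) := by
    have := k1.map t₂
    rwa [mapT_mapT, show t₂ * t₁ = t₁ * t₂ by
      rw [← inv_eq_of_mul_eq_one_right i3, mul_inv_rev, inv_eq_of_mul_eq_one_right i1,
        inv_eq_of_mul_eq_one_right i2]] at this
  set ε : Module.End F U := φ₁.smulRight u₁ with hε
  have f0 : ε * (1 - ε) = 0 := by ext; simp [hε, c3]
  have f1 : ε ≠ 0 := fun h0 => by
    have := congrArg φ₁ (LinearMap.congr_fun h0 u₁)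
    simp [hε, c3] at this
  have f2 : 1 - ε ≠ 0 := fun h0 => hw (by simpa [hε, c2] using LinearMap.congr_fun h0 w)
  have f3 := mul_ne_zero_of_comm T (x := psi (mapT T t₁) (1 - ε) * (psi (mapT T t₂) (1 - ε) *
    psi (mapT T (t₁ * t₂)) (1 - ε))) (fun a => (k1 _ a).mul_left ((k2 _ a).mul_left (k3 _ a)))
    (mul_ne_zero_of_comm _ (fun a => (k12 _ a).mul_left (k13 _ a)) (mul_ne_zero_of_comm _
      (fun a => k23 _ a) (fun h0 => f2 (psi_injective _ (h0.trans (map_zero _).symm))) f2) f2) f1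
  obtain ⟨v, hv⟩ := DFunLike.ne_iff.1 f3
  set x := (psi T ε * (psi (mapT T t₁) (1 - ε) * (psi (mapT T t₂) (1 - ε) *
    psi (mapT T (t₁ * t₂)) (1 - ε)))) v with hx
  have g0 : psi T ε x = x := by
    rw [hx, ← Module.End.mul_apply, ← mul_assoc, ← map_mul, show ε * ε = ε by ext; simp [hε, c3]]
  have g : ∀ t, t * t = 1 → psi (mapT T t) ε x = 0 → psi T ε (t x) = 0 := fun t ht h0 => by
    rw [psi_mapT, cN_apply, inv_eq_of_mul_eq_one_right ht] at h0
    simpa using h0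
  have f4 : ∀ S : TS F R U V, psi S ε * psi S (1 - ε) = 0 := fun S => by rw [← map_mul, f0, map_zero]
  have g1 := g t₁ i1 (by
    rw [hx, ← Module.End.mul_apply, (k1 _ _).left_comm, ← mul_assoc (psi (mapT T t₁) ε), f4]; simp)
  have g2 := g t₂ i2 (by
    rw [hx, ← Module.End.mul_apply, (k2 _ _).left_comm, (k12 _ _).left_comm,
      ← mul_assoc (psi (mapT T t₂) ε), f4]; simp)
  have g3 := g _ i3 (by
    rw [hx, ← Module.End.mul_apply, (k3 _ _).left_comm, (k13 _ _).left_comm, (k23 _ _).left_comm,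
      f4]; simp)
  have g4 : (t₁ * t₂) x + x = t₁ x + t₂ x := by
    rw [e3, e1, e2]
    simp [psi_e]; abel
  have := congrArg (psi T ε) g4
  rw [map_add, map_add, g0, g1, g2, g3] at this
  exact hv (by simpa using this)

/-- Two columns of unrelated structures with largest intersection. -/
structure Mx (𝒯 : Set (TS F R U V)) (T : TS F R U V) (w : U) (T' : TS F R U V) (w' : U) : Prop where
  m1 : T ∈ 𝒯
  m2 : T' ∈ 𝒯
  n1 : w ≠ 0
  n2 : w' ≠ 0
  nr : ¬ Rel T T'
  max : ∀ S ∈ 𝒯, ∀ S' ∈ 𝒯, ∀ y y', y ≠ 0 → y' ≠ 0 → ¬ Rel S S' →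
    finrank F ↥(S.col y ⊓ S'.col y') ≤ finrank F ↥(T.col w ⊓ T'.col w')

namespace Mx

variable {𝒯 : Set (TS F R U V)} {w w' : U} (h : Mx 𝒯 T w T' w')
include h

theorem symm : Mx 𝒯 T' w' T w :=
  ⟨h.m2, h.m1, h.n2, h.n1, fun e => h.nr e.symm, fun S a S' b y y' c d e => by
    rw [inf_comm (T'.col w')]; exact h.max S a S' b y y' c d e⟩

variable (hG : ∀ T ∈ 𝒯, Gd T M) (hc : ∀ T ∈ 𝒯, ∀ g ∈ M, mapT T g ∈ 𝒯)
include hG hc

theorem mem_of {w₁ : U} {φ : Dual F U} (h1 : w₁ ≠ 0) (hφ : φ ≠ 0) (h2 : φ w₁ = 0)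
    (hD : ∀ d ∈ T.col w, d ∈ T'.col w' → T.cW φ d = 0) {y : V} (hy : y ∈ T'.col w')
    (hy' : psi T (φ.smulRight w₁) y ∈ T'.col w') : y ∈ T.col w := by
  have := T.finite
  by_contra hn
  obtain ⟨k, hk, e⟩ := (hG T h.m1).hyp.has h2
  have a1 := h.max _ (hc T' h.m2 k hk) T' h.m2 w' w' h.n2 h.n2 fun hr =>
    h.nr ((hG T h.m1).sti (hG T' h.m2) hk h1 hφ h2 e hr)
  have a2 : ((T.col w ⊓ T'.col w') ⊔ F ∙ y).map (k : V →ₗ[F] V) ≤
      (mapT T' k).col w' ⊓ T'.col w' := by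
    rw [Submodule.map_le_iff_le_comap, sup_le_iff, Submodule.span_singleton_le_iff_mem]
    refine ⟨fun d hd => ⟨(mem_col_mapT _).2 (by simpa using hd.2), ?_⟩,
      (mem_col_mapT _).2 (by simpa using hy), ?_⟩
    · simpa [e, psi_e, hD d hd.1 hd.2] using hd.2
    · simpa [e] using Submodule.add_mem _ hy hy'
  have a3 := Submodule.finrank_mono a2
  rw [LinearEquiv.finrank_map_eq, Submodule.finrank_sup_span_singleton
    fun e => hn (Submodule.mem_inf.1 e).1] at a3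
  omega

theorem mem_self {φ : Dual F U} (hφ : φ ≠ 0) (h2 : φ w = 0) {y : V} (hy : y ∈ T'.col w')
    (hy' : psi T (φ.smulRight w) y ∈ T'.col w') : y ∈ T.col w :=
  h.mem_of hG hc h.n1 hφ h2 (by rintro _ ⟨r, rfl⟩ -; simp [h2]) hy hy'

theorem fr {φ : Dual F U} (hφ : φ ≠ 0) (h2 : φ w = 0) {y : V} (hy : y ∈ T.col w ⊔ T'.col w')
    (hy' : T.cW φ y = 0) : y ∈ T.col w := by
  obtain ⟨_, ⟨r, rfl⟩, x, hx, rfl⟩ := Submodule.mem_sup.1 hy
  exact Submodule.add_mem _ ⟨r, rfl⟩ (h.mem_self hG hc hφ h2 hx (by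
    simp [psi_e, show T.cW φ x = 0 by simpa [h2] using hy']))

theorem exists_pair (hd : 4 ≤ finrank F U ∨ Odd (finrank F R)) {g : V ≃ₗ[F] V} {α : R ≃ₗ[F] R}
    {β : U ≃ₗ[F] U} (e : ∀ r u, g (T.τ r u) = T.τ (α r) (β u))
    (h4 : ∀ x, g x - x ∈ T.col w ⊔ T'.col w') : ∃ (u : U) (φ : Dual F U), u ∉ F ∙ w ∧ φ ≠ 0 ∧
      φ w = 0 ∧ φ u = 0 ∧ φ (β u) = 0 := by
  have hb := (hG T h.m1).three
  have hw := h.n1
  obtain ⟨r₀, hr₀⟩ := exists_ne (0 : R)
  by_contra hn
  push Not at hn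
  obtain ⟨u, hu⟩ := exists_notMem_span (F := F) (V := U) (by omega) w
  have b0 : ∀ u, u ∉ F ∙ w → ((F ∙ w) ⊔ F ∙ u) ⊔ (F ∙ β u) = ⊤ ∧ β u ∉ (F ∙ w) ⊔ F ∙ u :=
    fun u hu => by
    have c1 : ((F ∙ w) ⊔ F ∙ u) ⊔ (F ∙ β u) = ⊤ := by
      by_contra hc
      obtain ⟨y, -, hy⟩ := SetLike.exists_of_lt (lt_top_iff_ne_top.2 hc)
      obtain ⟨φ, c1, c2⟩ := exists_dual_of_notMem _ hy 1
      exact hn u φ hu (by rintro rfl; simp at c2)
        (c1 _ (Submodule.mem_sup_left (Submodule.mem_sup_left (Submodule.mem_span_singleton_self _))))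
        (c1 _ (Submodule.mem_sup_left (Submodule.mem_sup_right (Submodule.mem_span_singleton_self _))))
        (c1 _ (Submodule.mem_sup_right (Submodule.mem_span_singleton_self _)))
    refine ⟨c1, fun hc => ?_⟩
    obtain ⟨φ, c2, c3, c4⟩ := exists_dual_two hb w u
    refine hn u φ hu c2 c3 c4 ?_
    have : (F ∙ w) ⊔ (F ∙ u) ≤ LinearMap.ker φ := by
      simp [Submodule.span_singleton_le_iff_mem, c3, c4]
    exact this hc
  obtain ⟨b1, b2⟩ := b0 u hu
  rcases hd with hd | hd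
  · have c1 := Submodule.finrank_sup_span_singleton b2
    have c2 := Submodule.finrank_sup_span_singleton hu
    rw [b1, finrank_top, c2, finrank_span_singleton hw] at c1
    omega
  obtain ⟨y, hy, a, b3⟩ := mem_sup_span (x := β (β u)) (b1.symm ▸ Submodule.mem_top)
  obtain ⟨c, b, b5⟩ := mem_two hy
  rw [← b5] at b3
  obtain ⟨χ, c1, c2, c3⟩ := exists_dual_of_notMem_sup _ b2 1
  have c4 := c1 w (Submodule.mem_span_singleton_self w)
  have b4 : u ∉ (F ∙ w) ⊔ F ∙ β u := fun hc => by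
    obtain ⟨c, d, e⟩ := mem_two hc
    have : d = 0 := by simpa [c2, c3, c4] using congrArg χ e
    exact hu (Submodule.mem_span_singleton.2 ⟨c, by simpa [this] using e⟩)
  obtain ⟨φ, c5, c6, c7⟩ := exists_dual_of_notMem_sup _ b4 1
  have c8 := c5 w (Submodule.mem_span_singleton_self w)
  have c9 : ∀ r, b • α (α r) + a • α r = r := fun r => by
    obtain ⟨r', hr'⟩ := h.fr hG hc (φ := φ) (by rintro rfl; simp at c7) c8
      (h4 (T.τ (b • α r) u + T.τ r (β u))) (by simp [e, ← b3, c6, c7, c8])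
    have := congrArg (T.cW χ) hr'
    simp [e, ← b3, c2, c3, c4] at this
    exact sub_eq_zero.1 this.symm
  have hroot : ∀ μ : F, b * μ * μ + a * μ ≠ 1 := fun μ hμ => by
    refine (b0 (β u + (b * μ) • u) fun hc => ?_).2 ?_
    · obtain ⟨d, hd⟩ := Submodule.mem_span_singleton.1 hc
      simpa [c2, c3, c4] using congrArg χ hd
    · refine Submodule.mem_sup.2 ⟨c • w, Submodule.mem_span_singleton.2 ⟨c, rfl⟩,
        (a + b * μ) • (β u + (b * μ) • u), Submodule.mem_span_singleton.2 ⟨_, rfl⟩, ?_⟩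
      rw [map_add, map_smul, ← b3]
      match_scalars
      · ring
      · ring
      · linear_combination b * hμ
  refine (Nat.not_even_iff_odd.2 hd) (even_of_quadratic (α := (α : Module.End F R)) c9 ?_ hroot)
  rintro rfl
  have ha : a ≠ 0 := by rintro rfl; exact hr₀ (by simpa using (c9 r₀).symm)
  exact hroot a⁻¹ (by simp [ha])

/-- Two-point stabilisers are trivial. -/
theorem eq_one (hd : 4 ≤ finrank F U ∨ Odd (finrank F R)) {g : V ≃ₗ[F] V} (hg : g ∈ M)
    (h1 : ∀ x ∈ T.col w, g x ∈ T.col w) (h2 : ∀ x ∈ T'.col w', g x ∈ T'.col w')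
    (h3 : ∀ x ∈ T.col w, x ∈ T'.col w' → g x = x) (h4 : ∀ x, g x - x ∈ T.col w ⊔ T'.col w') :
    g = 1 := by
  have := T.finite
  have G := hG T h.m1
  have hb := G.three
  have hw := h.n1
  obtain ⟨α, β, e⟩ := G.mem_TG hg hw hw h1
  obtain ⟨r₀, hr₀⟩ := exists_ne (0 : R)
  have cw : ∀ {r : R} {u : U}, r ≠ 0 → T.τ r u ∈ T.col w → u ∈ F ∙ w := fun {r u} hr hu => by
    by_contra hc
    obtain ⟨φ, a1, a2⟩ := exists_dual_of_notMem_span hc 1
    obtain ⟨r', hr'⟩ := hu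
    simpa [a1, a2, hr, eq_comm] using congrArg (T.cW φ) hr'
  obtain ⟨u, φ, a1, a2, a3, a4, a5⟩ := h.exists_pair hG hc hd e h4
  obtain ⟨χ, b1, b2⟩ := exists_dual_of_notMem_span a1 1
  have b3 : ∀ r, χ (β u) • α r = r := fun r => by
    obtain ⟨r', hr'⟩ := h.fr hG hc a2 a3 (h4 (T.τ r u)) (by simp [e, a4, a5])
    have := congrArg (T.cW χ) hr'
    simp [e, b1, b2] at this
    exact sub_eq_zero.1 this.symm
  have b4 : χ (β u) ≠ 0 := fun h0 => hr₀ (by rw [← b3 r₀, h0, zero_smul])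
  let n : Module.End F U := (χ (β u))⁻¹ • (β : Module.End F U) - 1
  have b5 : ∀ r y, g (T.τ r y) - T.τ r y = T.τ r (n y) := fun r y => by
    have : α r = (χ (β u))⁻¹ • r := by rw [eq_inv_smul_iff₀ b4, b3]
    simp [e, n, this]
  have b6 : ∀ y, n y ∈ F ∙ w := fun y => by
    obtain ⟨ψ, c1, c2, c3⟩ := exists_dual_two hb w (n y)
    exact cw hr₀ (b5 r₀ y ▸ h.fr hG hc c1 c2 (h4 _) (by simp [b5, c3]))
  obtain ⟨χ₀, hχ₀⟩ := exists_dual_of_ne_zero (F := F) hw 1
  have b7 : ∀ x, g x = x + psi T ((χ₀ ∘ₗ n).smulRight w) x := fun x => by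
    have : (g : Module.End F V) = 1 + psi T ((χ₀ ∘ₗ n).smulRight w) := T.lext fun r y => by
      obtain ⟨c, hc⟩ := Submodule.mem_span_singleton.1 (b6 y)
      simp [sub_eq_iff_eq_add'.1 (b5 r y), ← hc, hχ₀]
    exact LinearMap.congr_fun this x
  generalize χ₀ ∘ₗ n = ρ at b7
  by_cases c1 : ρ = 0
  · exact LinearEquiv.ext fun x => by simp [b7, c1, psi_e]
  by_cases c2 : ρ w = 0
  · exact (h.nr (G.ti (hG T' h.m2) hw c1 b7 ((hG T' h.m2).mem_TG hg h.n2 h.n2 h2))).elim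
  exfalso
  have c3 : T.col w ⊓ T'.col w' = ⊥ := eq_bot_iff.2 (by
    rintro _ ⟨⟨r, rfl⟩, hr⟩
    simpa [b7, c2, T.τ_eq_zero, hw] using h3 _ ⟨r, rfl⟩ hr)
  obtain ⟨w₁, c4, c5, -⟩ := exists_ker_two hb ρ ρ
  have h' : Mx 𝒯 T w₁ T' w' := ⟨h.m1, h.m2, c4, h.n2, h.nr, fun S a S' b y y' c d e =>
    (h.max S a S' b y y' c d e).trans (by rw [c3, finrank_bot]; exact Nat.zero_le _)⟩
  have c6 : ∀ y ∈ T'.col w', T.cW ρ y = 0 := fun y hy => by
    have : psi T (ρ.smulRight w) y ∈ T.col w ⊓ T'.col w' := ⟨⟨_, (psi_e T w ρ y).symm⟩, by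
      simpa [b7] using Submodule.sub_mem _ (h2 y hy) hy⟩
    simpa [c3, psi_e, T.τ_eq_zero, hw] using this
  have c7 := h.max T h.m1 T' h.m2 w₁ w' c4 h.n2 h.nr
  rw [c3, finrank_bot, inf_eq_right.2 fun y hy => h'.mem_of hG hc c4 c1 c5 (fun d _ => c6 d) hy
    (by simp [psi_e, c6 y hy]), finrank_col _ h.n2] at c7
  have := Module.finrank_pos (R := F) (M := R)
  omega

end Mx

/-- Conjugate structures are equal or commute. -/
theorem rel_SL [Finite F] {𝒯 : Set (TS F R U V)} (hG : ∀ T ∈ 𝒯, Gd T M)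
    (hc : ∀ T ∈ 𝒯, ∀ g ∈ M, mapT T g ∈ 𝒯) (hd : 4 ≤ finrank F U ∨ Odd (finrank F R))
    (h1 : T ∈ 𝒯) (h2 : T' ∈ 𝒯) : Rel T T' := by
  classical
  have := T.finite
  have hb := (hG T h1).three
  have : Nontrivial U := Module.nontrivial_of_finrank_pos (R := F) (by omega)
  by_contra hn
  obtain ⟨T, w, T', w', h⟩ : ∃ T w T' w', Mx 𝒯 T w T' w' := by
    let p : ℕ → Prop := fun m => ∃ S ∈ 𝒯, ∃ S' ∈ 𝒯, ∃ y y', y ≠ 0 ∧ y' ≠ 0 ∧ ¬ Rel S S' ∧
      finrank F ↥(S.col y ⊓ S'.col y') = m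
    obtain ⟨y, hy⟩ := exists_ne (0 : U)
    obtain ⟨S, a1, S', a2, z, z', a3, a4, a5, a6⟩ : p (Nat.findGreatest p (finrank F V)) :=
      Nat.findGreatest_spec (Submodule.finrank_le _) ⟨T, h1, T', h2, y, y, hy, hy, hn, rfl⟩
    exact ⟨S, z, S', z', a1, a2, a3, a4, a5, fun S b1 S' b2 y y' b3 b4 b5 => a6 ▸
      Nat.le_findGreatest (Submodule.finrank_le _) ⟨S, b1, S', b2, y, y', b3, b4, b5, rfl⟩⟩
  have G := hG T h.m1
  have G' := hG T' h.m2
  let K : Subgroup (V ≃ₗ[F] V) := (M ⊓ trivQ (T.col w ⊔ T'.col w')) ⊓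
    { carrier := {g | ∀ x ∈ T.col w, x ∈ T'.col w' → g x = x}
      one_mem' := fun _ _ _ => rfl
      mul_mem' := fun ha hb x h1 h2 => by rw [le_mul_apply, hb x h1 h2, ha x h1 h2]
      inv_mem' := fun ha x h1 h2 => by
        rw [le_inv_apply, LinearEquiv.symm_apply_eq, ha x h1 h2] }
  have k1 : ∀ φ : Dual F U, φ w = 0 → Has K fun x => x + psi T (φ.smulRight w) x := fun φ hφ => by
    obtain ⟨g, hg, e⟩ := G.hyp.has hφ
    exact ⟨g, ⟨⟨hg, fun x => Submodule.mem_sup_left ⟨_, by simp [e, psi_e]; rfl⟩⟩, by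
      rintro _ ⟨r, rfl⟩ -; simp [e, hφ]⟩, e⟩
  have k2 : ∀ φ : Dual F U, φ w' = 0 → Has K fun x => x + psi T' (φ.smulRight w') x := fun φ hφ => by
    obtain ⟨g, hg, e⟩ := G'.hyp.has hφ
    exact ⟨g, ⟨⟨hg, fun x => Submodule.mem_sup_right ⟨_, by simp [e, psi_e]; rfl⟩⟩, by
      rintro _ - ⟨r, rfl⟩; simp [e, hφ]⟩, e⟩
  have st : ∀ {T T' : TS F R U V} {w w' : U} {φ φ' : Dual F U} {g : V ≃ₗ[F] V}, φ ≠ 0 → φ' ≠ 0 →
      (∀ x, g (psi T (φ.smulRight w) x) = psi T' (φ'.smulRight w') (g x)) →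
      ∀ x ∈ T.col w, g x ∈ T'.col w' := fun {T T' w w' φ φ' g} hφ hφ' e x hx => by
    rw [← range_psi_e T hφ] at hx
    rw [← range_psi_e T' hφ']
    obtain ⟨y, rfl⟩ := hx
    exact ⟨_, (e y).symm⟩
  have sq : ∀ (T : TS F R U V) (w : U) (φ : Dual F U), φ w = 0 →
      psi T (φ.smulRight w) * psi T (φ.smulRight w) = 0 := fun T w φ h => by
    rw [← map_mul]; convert map_zero (psi T); ext y; simp [h]
  obtain ⟨φ, a1, a2, -⟩ := exists_dual_two hb w w
  obtain ⟨φ₁, c1, c2, -⟩ := exists_dual_two hb w' w'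
  by_cases h2 : (2 : F) ≠ 0
  · obtain ⟨z, hz, z1, -, z3, z4, -⟩ := exists_central_invol (sq T w φ a2) (sq T' w' φ₁ c2) h2 (by
      rintro ⟨k, hk⟩
      obtain ⟨x, b1, b2⟩ : ∃ x ∈ T.col w, x ∉ T'.col w' := by
        by_contra hc
        push Not at hc
        exact h.nr (Or.inl (G.same_of_col G' h.n1 h.n2 (Submodule.eq_of_le_of_finrank_eq hc
          (by rw [finrank_col _ h.n1, finrank_col _ h.n2]))))
      have : ∀ k : ℕ, ((psi T (φ.smulRight w) * psi T' (φ₁.smulRight w') +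
          psi T' (φ₁.smulRight w') * psi T (φ.smulRight w)) ^ k) x ∈ T.col w ∧
          ((psi T (φ.smulRight w) * psi T' (φ₁.smulRight w') +
          psi T' (φ₁.smulRight w') * psi T (φ.smulRight w)) ^ k) x ∉ T'.col w' := fun k => by
        induction k with
        | zero => exact ⟨b1, b2⟩
        | succ k ih =>
          rw [pow_succ', Module.End.mul_apply]
          obtain ⟨⟨y, hy⟩, b3⟩ := ih
          rw [← hy] at b3 ⊢
          simp only [LinearMap.add_apply, Module.End.mul_apply, LinearMap.flip_apply, psi_τ,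
            LinearMap.smulRight_apply, a2, zero_smul, map_zero, add_zero]
          exact ⟨⟨_, (psi_e _ _ _ _).symm⟩, fun e => b3 (h.symm.mem_self hG hc c1 c2 ⟨y, rfl⟩
            (h.mem_self hG hc a1 a2 ⟨_, (psi_e _ _ _ _).symm⟩ e))⟩
      exact (this k).2 (by simp [hk])) (k1 φ a2) (k2 φ₁ c2)
    exact z1 (h.eq_one hG hc hd hz.1.1 (st a1 a1 z3) (st c1 c1 z4) hz.2 hz.1.2)
  push Not at h2
  have := finite_equiv (F := F) (V := V)
  have two : ∀ x : V, x + x = 0 := fun x => by rw [← two_smul F x, h2, zero_smul]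
  have inv : ∀ {t : V ≃ₗ[F] V} {n : Module.End F V}, (∀ x, t x = x + n x) → n * n = 0 → t * t = 1 :=
    fun {t n} e hn => LinearEquiv.ext fun x => by
      rw [le_mul_apply, e, e, map_add, ← Module.End.mul_apply, hn, add_assoc, LinearMap.zero_apply,
        add_zero, two, add_zero]; rfl
  have cm : ∀ {s t t' : V ≃ₗ[F] V} {n n' : Module.End F V}, (∀ x, t x = x + n x) →
      (∀ x, t' x = x + n' x) → s * t = t' * s → ∀ x, s (n x) = n' (s x) :=
    fun {s t t' n n'} e e' h x => by simpa [e, e'] using LinearEquiv.congr_fun h x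
  obtain ⟨z, hz, ez⟩ := k1 φ a2
  have key : ∀ φ' : Dual F U, φ' ≠ 0 → φ' w' = 0 → ∃ s ∈ K, s * s = 1 ∧
      ∀ x, s (psi T (φ.smulRight w) x) = psi T' (φ'.smulRight w') (s x) := fun φ' b1 b2 => by
    obtain ⟨z', hz', ez'⟩ := k2 φ' b2
    rcases dihedral (inv ez (sq T w φ a2)) (inv ez' (sq T' w' φ' b2)) K hz hz' with
      ⟨c, d1, d2, d3, d4⟩ | ⟨s, d1, d2, d3⟩
    · exact (d2 (h.eq_one hG hc hd d1.1.1 (st a1 a1 (cm ez ez d3)) (st b1 b1 (cm ez' ez' d4))
        d1.2 d1.1.2)).elim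
    · exact ⟨s, d1, d2, cm ez ez' (by rw [← d3]; simp)⟩
  obtain ⟨u₁, c3⟩ := exists_apply_eq_one c1
  obtain ⟨φ₂, c4, c5, c6⟩ := exists_dual_two hb w' u₁
  obtain ⟨s₁, d1, d2, d3⟩ := key φ₁ c1 c2
  obtain ⟨s₂, d4, d5, d6⟩ := key φ₂ c4 c5
  have bk : ∀ {s : V ≃ₗ[F] V} {φ' : Dual F U}, s * s = 1 →
      (∀ x, s (psi T (φ.smulRight w) x) = psi T' (φ'.smulRight w') (s x)) →
      ∀ x, s (psi T' (φ'.smulRight w') x) = psi T (φ.smulRight w) (s x) := fun {s φ'} e e' x => by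
    have i : ∀ x, s (s x) = x := fun x => by rw [← le_mul_apply, e]; rfl
    rw [← i x, ← e', i, i]
  have d7 := K.mul_mem d4 d1
  have d8 := h.eq_one hG hc hd d7.1.1 (fun x hx => st c4 a1 (bk d5 d6) _ (st a1 c1 d3 x hx))
    (fun x hx => st a1 c4 d6 _ (st c1 a1 (bk d2 d3) x hx)) d7.2 d7.1.2
  rw [mul_eq_one_iff_eq_inv, inv_eq_of_mul_eq_one_right d2] at d8
  obtain ⟨r, hr⟩ := exists_ne (0 : R)
  have d9 := (d3 (s₁⁻¹ (T'.τ r u₁))).symm.trans (d8 ▸ d6 (s₁⁻¹ (T'.τ r u₁)))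
  simp [c3, c6, T'.τ_eq_zero, hr, h.n2] at d9

end H28.Wr
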