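import Mathlib
import Cfsg.Agent.Base
import Cfsg.Agent.Lib.Wr7.SL2
import Cfsg.Agent.Lib.Asch.Wreath

/-!
The tensor wreath product as the group permuting the factor algebras; the linear case.
-/

set_option autoImplicit false
set_option linter.unusedSectionVars false
set_option linter.unusedSimpArgs false

namespace H28.Wr

open Module Cfsg H97 H11.Ten H11.Ten.TS
open scoped commutatorElement

section Abstract

variable {F R U V : Type*} [Field F] [AddCommGroup R] [Module F R] [AddCommGroup U]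
  [Module F U] [AddCommGroup V] [Module F V] [FiniteDimensional F R] [FiniteDimensional F U]
  [Nontrivial R] {ι : Type*} [Fintype ι] [DecidableEq ι] {T : ι → TS F R U V}
  {M : Subgroup (V ≃ₗ[F] V)}

variable (T) in
/-- The group permuting the factors. -/
def WG : Subgroup (V ≃ₗ[F] V) where
  carrier := {g | ∃ σ : Equiv.Perm ι, ∀ i, Same (mapT (T i) g) (T (σ i))}
  one_mem' := ⟨1, fun i => Same.refl _⟩
  mul_mem' := by
    rintro g h ⟨σ, e⟩ ⟨τ, e'⟩
    exact ⟨σ * τ, fun i => ((e' i).map g).trans (e (τ i))⟩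
  inv_mem' := by
    rintro g ⟨σ, e⟩
    refine ⟨σ⁻¹, fun i => ?_⟩
    have := ((e (σ⁻¹ i)).map g⁻¹).symm
    rwa [mapT_mapT, inv_mul_cancel, mapT_one, show σ (σ⁻¹ i) = i from σ.apply_symm_apply i] at this

theorem Multi.mem_WG (h : Multi T) (hk : 2 ≤ finrank F U) {g : V ≃ₗ[F] V}
    (hr : ∀ i j, Rel (mapT (T i) g) (T j)) : g ∈ WG T := by
  have h1 : ∀ i, ∃ j, Same (mapT (T i) g) (T j) := fun i => by
    by_contra hc
    push Not at hc
    refine (Same.refl (mapT (T i) g)).not_comm hk fun a b => ?_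
    obtain ⟨c, e⟩ := h.scalar fun j => (hr i j).resolve_left (hc j) a
    rw [e]
    exact (Commute.one_left _).smul_left c
  choose σ hσ using h1
  have h2 : Function.Injective σ := fun i j e => by
    by_contra hij
    exact ((hσ i).trans (e ▸ hσ j).symm).not_comm hk ((h.comm i j hij).map g)
  exact ⟨Equiv.ofBijective σ (Finite.injective_iff_bijective.1 h2), hσ⟩

theorem Multi.rel_of_mem (h : Multi T) {g : V ≃ₗ[F] V} (hg : g ∈ WG T) (i j : ι) :
    Rel (mapT (T i) g) (T j) := by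
  obtain ⟨σ, e⟩ := hg
  by_cases hij : σ i = j
  · exact Or.inl (hij ▸ e i)
  · exact Or.inr (Comm.of_same (e i) (h.comm _ _ hij))

theorem Multi.opE_mem (h : Multi T) (i : ι) (β : U ≃ₗ[F] U) : (T i).opE 1 β ∈ WG T :=
  ⟨1, fun j => by
    by_cases hij : j = i
    · exact hij ▸ same_of_mem_TG ((T j).opE_mem _ _)
    · exact fun a => ⟨a, by rw [psi_mapT, cN_opE_of_comm _ _ (h.comm j i hij a)]; rfl⟩⟩

theorem cyc_of (π : Equiv.Perm ι →* (V ≃ₗ[F] V))
    (hπ : ∀ σ i a, cN (π σ) (psi (T i) a) = psi (T (σ i)) a) (h : ∀ a b, ⁅π a, π b⁆ ∈ M) :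
    Cyc T M := fun i j l hij hjl hil => by
  refine ⟨_, h (Equiv.swap i l) (Equiv.swap l j), fun a => ?_, fun a => ?_⟩ <;>
    rw [← map_commutatorElement, hπ] <;>
    simp [commutatorElement_def, Equiv.swap_apply_def, hij, hjl, hil, hij.symm, hjl.symm, hil.symm]

theorem mem_WG_of (π : Equiv.Perm ι →* (V ≃ₗ[F] V))
    (hπ : ∀ σ i a, cN (π σ) (psi (T i) a) = psi (T (σ i)) a) (σ : Equiv.Perm ι) : π σ ∈ WG T :=
  ⟨σ, fun i a => ⟨a, by rw [psi_mapT, hπ]⟩⟩

theorem not_rel_of_lev {T : TS F R U V} {g : V ≃ₗ[F] V} {s : Module.End F R} {w : U}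
    {φ : Dual F U} (hw : w ≠ 0) (hφ : φ ≠ 0) (hφw : φ w = 0) (hs : ∀ c : F, s ≠ c • LinearMap.id)
    (e : ∀ x, g x = x + T.τ (s (T.cW φ x)) w) : ¬ Rel (mapT T g) T := by
  have : Nontrivial U := ⟨⟨w, 0, hw⟩⟩
  obtain ⟨u, hu⟩ := exists_apply_eq_one hφ
  have h1 : ∀ r y, psi (mapT T g) (φ.smulRight u) (T.τ r y) =
      φ y • (T.τ r u + T.τ (s r) w) := fun r y => by
    have : g⁻¹ (T.τ r y) = T.τ r y - φ y • T.τ (s r) w := by
      rw [le_inv_apply, LinearEquiv.symm_apply_eq, e]; simp [hφw]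
    simp [psi_mapT, cN_apply, this, e, hφw, hu]
  obtain ⟨r, hr⟩ := exists_notMem_of_not_scalar hs
  obtain ⟨ψ, a1, a2⟩ := exists_dual_of_notMem_span hr 1
  rintro (h | h)
  · obtain ⟨a, ha⟩ := h (φ.smulRight u)
    have := congrArg (T.cU ψ) (h1 r u)
    simp [ha, a1, a2, hu, hw, eq_comm] at this
  · have := LinearMap.congr_fun (h (φ.smulRight u) (φ.smulRight w)).eq (T.τ r u)
    have hr0 : r ≠ 0 := by rintro rfl; simp at hr
    simp [h1, hφw, hu, eq_comm (a := (0 : V)), T.τ_eq_zero, hw, hr0] at this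

/-- The tensor wreath product is maximal in `SL`. -/
theorem isMaximalIn_WG_SL [Finite F] [Nonempty ι] (h : Multi T) (hk : 3 ≤ finrank F U)
    (hR : 2 ≤ finrank F R) (hd : 4 ≤ finrank F U ∨ Odd (finrank F R))
    (π : Equiv.Perm ι →* (V ≃ₗ[F] V))
    (hπ : ∀ σ i a, cN (π σ) (psi (T i) a) = psi (T (σ i)) a) :
    Geo.IsMaximalIn (SLV F V) (WG T ⊓ SLV F V) := by
  obtain ⟨i₀⟩ := ‹Nonempty ι›
  have : Nontrivial U := Module.nontrivial_of_finrank_pos (R := F) (by omega)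
  refine isMaximalIn_of inf_le_right (fun hc => ?_) fun M h1 h2 ⟨g, hg, hg'⟩ => ?_
  · obtain ⟨w, hw⟩ := exists_ne (0 : U)
    obtain ⟨φ, a1, a2, -⟩ := exists_dual_two hk w w
    obtain ⟨r, hr⟩ := exists_ne (0 : R)
    obtain ⟨r', hr'⟩ := exists_notMem_span hR r
    obtain ⟨ψ, b1, b2⟩ := exists_dual_of_notMem_span hr' 1
    obtain ⟨g, hg, e⟩ := (hasT_SLV (u := (T i₀).τ r w) (φ := ψ ∘ₗ (T i₀).cW φ) (by simp [a2])).elim
    refine not_rel_of_lev (s := ψ.smulRight r) hw a1 a2 (fun c hc => ?_) (fun x => by simp [e])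
      (h.rel_of_mem (hc hg).1 i₀ i₀)
    have c1 := LinearMap.congr_fun hc r'
    have c2 := congrArg ψ c1
    simp [b1, b2] at c1 c2
    exact hr (by simpa [← c2] using c1)
  by_contra hc
  have hM : ∀ i, Hyp (T i) M := fun i β hβ =>
    h1 ⟨h.opE_mem i β, (T i).opE_mem_SLV (Subgroup.one_mem _) hβ⟩
  have hG : ∀ i, Gd (T i) M := fun i => ⟨hM i, hk, lev_scalar h hk hM (cyc_of π hπ fun a b => h1
    ⟨map_commutatorElement π a b ▸ mem_WG_of π hπ _, MonoidHom.mem_ker.2 (by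
      rw [map_commutatorElement, commutatorElement_eq_one_iff_mul_comm, mul_comm])⟩) hc i⟩
  refine hg' ⟨h.mem_WG (by omega) fun i j => rel_SL (M := M)
    (𝒯 := {S | ∃ i, ∃ g ∈ M, S = mapT (T i) g}) ?_ ?_ hd ⟨i, g, hg, rfl⟩ ⟨j, 1, M.one_mem, rfl⟩, h2 hg⟩
  · rintro _ ⟨i, g, hg, rfl⟩
    exact (hG i).map hg
  · rintro _ ⟨i, g, hg, rfl⟩ k hk
    exact ⟨i, k * g, M.mul_mem hk hg, rfl⟩

end Abstract

section Model

open H10.Asch
open scoped Matrix MatrixGroups

variable {F : Type*} [Field F] {κ : Type} [Fintype κ] [DecidableEq κ] {t k : ℕ}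

/-- The pure tensors with respect to the `j`-th factor. -/
def pj (j : Fin (t + 1)) :
    ((Fin t → Fin k) → F) →ₗ[F] (Fin k → F) →ₗ[F] ((Fin (t + 1) → Fin k) → F) :=
  LinearMap.mk₂ F (fun r u a => r (j.removeNth a) * u (a j)) (fun _ _ _ => by ext; simp [add_mul])
    (fun _ _ _ => by ext; simp [mul_assoc]) (fun _ _ _ => by ext; simp [mul_add])
    (fun _ _ _ => by ext; simp [mul_left_comm])

theorem pj_apply (j : Fin (t + 1)) (r : (Fin t → Fin k) → F) (u : Fin k → F)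
    (a : Fin (t + 1) → Fin k) : pj j r u a = r (j.removeNth a) * u (a j) := rfl

theorem isTensorProduct_pj (j : Fin (t + 1)) : IsTensorProduct (pj (F := F) (k := k) j) :=
  IsTensorProduct.of_equiv (((Pi.basisFun F (Fin t → Fin k)).tensorProduct
    (Pi.basisFun F (Fin k))).equivFun.trans (LinearEquiv.funCongrLeft F F
      ((Fin.insertNthEquiv (fun _ => Fin k) j).symm.trans (Equiv.prodComm _ _))))
    fun x y => by ext a; simp [pj_apply, mul_comm]

theorem sum_split {M : Type*} [AddCommMonoid M] (j : Fin (t + 1)) (f : (Fin (t + 1) → Fin k) → M) :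
    ∑ a, f a = ∑ b : Fin t → Fin k, ∑ c : Fin k, f (j.insertNth c b) := by
  rw [← (Fin.insertNthEquiv (fun _ => Fin k) j).sum_comp, Fintype.sum_prod_type, Finset.sum_comm]
  rfl

theorem ptens_pj (j : Fin (t + 1)) (a : Fin (t + 1) → Matrix (Fin k) (Fin k) F)
    (r : (Fin t → Fin k) → F) (u : Fin k → F) :
    ptens a *ᵥ pj j r u = pj j (ptens (j.removeNth a) *ᵥ r) (a j *ᵥ u) := by
  ext x
  simp only [Matrix.mulVec, dotProduct, pj_apply, ptens_apply, sum_split j, Finset.sum_mul_sum,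
    Fin.prod_univ_succAbove _ j, Fin.insertNth_apply_same, Fin.insertNth_apply_succAbove,
    Fin.removeNth_insertNth]
  exact Finset.sum_congr rfl fun _ _ => Finset.sum_congr rfl fun _ _ => by
    simp only [Fin.removeNth]; ring

/-- The tensor structure of the `j`-th factor. -/
noncomputable def tsW (e : κ ≃ (Fin (t + 1) → Fin k)) (P : GL κ F) (j : Fin (t + 1)) :
    TS F ((Fin t → Fin k) → F) (Fin k → F) (κ → F) where
  τ := (pj j).compr₂ (crd e P).symm.toLinearMap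
  h := (isTensorProduct_pj j).compr₂_linearEquiv _

theorem tsW_τ (e : κ ≃ (Fin (t + 1) → Fin k)) (P : GL κ F) (j : Fin (t + 1))
    (r : (Fin t → Fin k) → F) (u : Fin k → F) :
    (tsW e P j).τ r u = (P : Matrix κ κ F) *ᵥ (pj j r u ∘ e) := rfl

theorem psi_tsW (e : κ ≃ (Fin (t + 1) → Fin k)) (P : GL κ F) (j : Fin (t + 1))
    (a : Matrix (Fin k) (Fin k) F) :
    psi (tsW e P j) (Matrix.toLin' a) = Matrix.toLin' (tr e P (fac j a)) :=
  (tsW e P j).lext fun r u => by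
    rw [psi_τ, tsW_τ, tsW_τ, Matrix.toLin'_apply, Matrix.toLin'_apply, tr_mulVec, fac_apply,
      ptens_pj, Pi.mulSingle_eq_same, show j.removeNth (Pi.mulSingle j a :
        Fin (t + 1) → Matrix (Fin k) (Fin k) F) = 1 from funext fun i => by
          simp [Fin.removeNth, Pi.mulSingle_eq_of_ne (j.succAbove_ne i)], ptens_one, Matrix.one_mulVec]

theorem cN_toLE (g : GL κ F) (x : Matrix κ κ F) :
    cN (toLE κ F g) (Matrix.toLin' x) = Matrix.toLin' (cj g x) := by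
  rw [cN_eq, ← map_inv, toLE_coe, toLE_coe, cj_apply, Matrix.toLin'_mul, Matrix.toLin'_mul]
  rfl

theorem multi_tsW (e : κ ≃ (Fin (t + 1) → Fin k)) (P : GL κ F) : Multi (tsW e P) where
  comm i j hij a b := by
    obtain ⟨a, rfl⟩ := Matrix.toLin'.surjective a
    obtain ⟨b, rfl⟩ := Matrix.toLin'.surjective b
    rw [psi_tsW, psi_tsW]
    exact ((commute_fac hij a b).map (tr e P)).map Matrix.toLinAlgEquiv'
  gen A h := by
    have := eq_top_of_fac (A.comap ((tr e P).trans Matrix.toLinAlgEquiv').toAlgHom) fun i a => by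
      have := h i (Matrix.toLin' a)
      rw [psi_tsW] at this
      exact this
    refine eq_top_iff.2 fun x _ => ?_
    obtain ⟨y, rfl⟩ := ((tr e P).trans Matrix.toLinAlgEquiv').surjective x
    exact (this ▸ Algebra.mem_top : y ∈ A.comap _)

/-- The factor permutations. -/
noncomputable def piW (e : κ ≃ (Fin (t + 1) → Fin k)) (P : GL κ F) :
    Equiv.Perm (Fin (t + 1)) →* ((κ → F) ≃ₗ[F] (κ → F)) :=
  (toLE κ F).toMonoidHom.comp ((trGL e P).toMonoidHom.comp (fpermGL k F))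

theorem cN_piW (e : κ ≃ (Fin (t + 1) → Fin k)) (P : GL κ F) (σ : Equiv.Perm (Fin (t + 1)))
    (i : Fin (t + 1)) (a : Module.End F (Fin k → F)) :
    cN (piW e P σ) (psi (tsW e P i) a) = psi (tsW e P (σ i)) a := by
  obtain ⟨a, rfl⟩ := Matrix.toLin'.surjective a
  rw [psi_tsW, psi_tsW]
  exact (cN_toLE _ _).trans (by rw [← cj_fpermGL_fac]; exact congrArg _ (cj_trGL _ _ _ _))

theorem piW_apply (e : κ ≃ (Fin (t + 1) → Fin k)) (P : GL κ F) (σ : Equiv.Perm (Fin (t + 1)))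
    (x : (Fin (t + 1) → Fin k) → F) :
    piW e P σ ((P : Matrix κ κ F) *ᵥ (x ∘ e)) = (P : Matrix κ κ F) *ᵥ ((fun a => x (a ∘ σ)) ∘ e) := by
  change tr e P (fperm k F σ) *ᵥ _ = _
  rw [tr_mulVec]
  congr 2
  ext a
  simp [Matrix.mulVec, dotProduct, fperm_apply]

theorem wreath_eq [NeZero k] (e : κ ≃ (Fin (t + 1) → Fin k)) (P : GL κ F) :
    Geo.tensorWreathSubgroup k (t + 1) e P = pull (WG (tsW e P)) := by
  ext g
  rw [mem_pull]
  constructor
  · intro hg
    obtain ⟨σ, s, h⟩ := cj_fac_of_mem_tensorWreathStandard ((mem_map_trGL e P _ g).1 hg)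
    refine ⟨σ, fun i a => ?_⟩
    obtain ⟨a, rfl⟩ := Matrix.toLin'.surjective a
    refine ⟨Matrix.toLin' (cj (s (σ i)) a), ?_⟩
    rw [psi_mapT, psi_tsW, psi_tsW, cN_toLE, ← h, ← cj_trGL, MulEquiv.apply_symm_apply]
  · rintro ⟨σ, h⟩
    refine mem_tensorWreathSubgroup_of_nrm (ψ := fun i => (tr e P : _ →ₐ[F] _).comp (fac i))
      (fun _ _ => rfl) σ ?_
    rintro i _ ⟨a, rfl⟩
    obtain ⟨a', e'⟩ := h i (Matrix.toLin' a)
    obtain ⟨a', rfl⟩ := Matrix.toLin'.surjective a'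
    rw [psi_mapT, psi_tsW, psi_tsW, cN_toLE] at e'
    exact ⟨a', (Matrix.toLin'.injective e').symm⟩

theorem finrank_R : finrank F ((Fin t → Fin k) → F) = k ^ t := by simp

/-- Tensor wreath products are maximal in `SL`. -/
theorem isMaximalIn_wreath_SL [Fintype F] (hk : 3 ≤ k) (ht : 2 ≤ t) (e : κ ≃ (Fin t → Fin k))
    (P : GL κ F) : Geo.IsMaximalIn (Geo.specialLinear κ F)
      (Geo.tensorWreathSubgroup k t e P ⊓ Geo.specialLinear κ F) := by
  obtain ⟨t, rfl⟩ : ∃ s, t = s + 1 := ⟨t - 1, by omega⟩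
  have : NeZero k := ⟨by omega⟩
  rw [wreath_eq, specialLinear_eq, ← pull_inf]
  refine isMaximalIn_pull (isMaximalIn_WG_SL (multi_tsW e P) (by simpa) ?_ ?_ (piW e P) (cN_piW e P))
  · rw [finrank_R]
    exact (show 2 ≤ k by omega).trans (Nat.le_self_pow (by omega) k)
  · rcases hk.eq_or_lt with rfl | h
    · exact Or.inr (finrank_R (F := F) ▸ Odd.pow (by decide))
    · exact Or.inl (by simpa)

end Model

end H28.Wr
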