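import Mathlib
import Cfsg.Agent.Base
import Cfsg.Agent.Lib.Wr7.Model
import Cfsg.Agent.Lib.Tensor.HermIdent

/-!
Tensor powers of forms: translation of the matrix definitions.
-/

set_option autoImplicit false
set_option linter.unusedSectionVars false
set_option linter.unusedSimpArgs false

namespace H28.Wr

open Module Cfsg H97 H11.Ten H11.Ten.TS H10.Asch
open scoped commutatorElement Matrix MatrixGroups

section Abstract

variable {F R U V : Type*} [Field F] [AddCommGroup R] [Module F R] [AddCommGroup U]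
  [Module F U] [AddCommGroup V] [Module F V] {σ : F →+* F}

/-- A family of tensor structures compatible with forms, with the factor permutations. -/
structure WF {ι : Type*} (T : ι → TS F R U V) (PR : PQ F R σ) (PU : PQ F U σ) (P : PQ F V σ)
    (π : Equiv.Perm ι →* (V ≃ₗ[F] V)) : Prop where
  multi : Multi T
  tf : ∀ i, TF (T i) PR PU P
  perm : ∀ s i a, cN (π s) (psi (T i) a) = psi (T (s i)) a
  isom : ∀ s, π s ∈ P.Isom

variable [FiniteDimensional F R] [FiniteDimensional F U] [FiniteDimensional F V] [Nontrivial R]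
  {ι : Type*} [Fintype ι] [DecidableEq ι] {T : ι → TS F R U V} {PR : PQ F R σ} {PU : PQ F U σ}
  {P : PQ F V σ} {π : Equiv.Perm ι →* (V ≃ₗ[F] V)} {M : Subgroup (V ≃ₗ[F] V)}

theorem WF.comm_mem (h : WF T PR PU P π) {k : ℕ} (hk : IsoK P k) (hn : k + 2 ≤ finrank F V)
    (i₀ : ι) (a b : Equiv.Perm ι) : ⁅π a, π b⁆ ∈ WG T ⊓ EG P :=
  ⟨map_commutatorElement π a b ▸ mem_WG_of π h.perm _,
    hk.commutator_mem_EG (h.tf i₀).nd hn (h.isom a) (h.isom b)⟩

theorem WF.cyc (h : WF T PR PU P π) {k : ℕ} (hk : IsoK P k) (hn : k + 2 ≤ finrank F V)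
    (i₀ : ι) (hM : WG T ⊓ EG P ≤ M) : Cyc T M :=
  cyc_of π h.perm fun a b => hM (h.comm_mem hk hn i₀ a b)

theorem sep_of_tensor {T : TS F R U V} {B : V →ₛₗ[σ] V →ₗ[F] F} {BR : R →ₛₗ[σ] R →ₗ[F] F}
    {BU : U →ₛₗ[σ] U →ₗ[F] F} [Nontrivial U] (hB : B.SeparatingLeft)
    (e : ∀ r u r' u', B (T.τ r u) (T.τ r' u') = BR r r' * BU u u') : BR.SeparatingLeft := by
  intro r hr
  obtain ⟨u, hu⟩ := exists_ne (0 : U)
  refine (T.τ_eq_zero.1 (hB (T.τ r u) fun y => ?_)).resolve_right hu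
  exact T.ind (p := fun y => B (T.τ r u) y = 0) y (by simp) (fun r' u' => by rw [e, hr, zero_mul])
    fun x y hx hy => by rw [map_add, hx, hy, add_zero]

theorem quad_eq_of_span {Q Q' : QuadraticForm F V} {S : Set V} (hS : Submodule.span F S = ⊤)
    (hp : ∀ x y, QuadraticMap.polar Q x y = QuadraticMap.polar Q' x y) (h : ∀ x ∈ S, Q x = Q' x)
    (x : V) : Q x = Q' x := by
  have hx : x ∈ Submodule.span F S := hS ▸ trivial
  induction hx using Submodule.span_induction with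
  | mem x hx => exact h x hx
  | zero => simp
  | add x y _ _ hx hy =>
    have := hp x y
    simp only [QuadraticMap.polar, hx, hy] at this
    linear_combination this
  | smul a x _ hx => rw [Q.map_smul, Q'.map_smul, hx]

end Abstract

section Gram

variable {F : Type*} [Field F] {α : Type} [Fintype α] [DecidableEq α] {t k : ℕ}

/-- The sesquilinear form with a given Gram matrix. -/
def gB (σ : F →+* F) (G : Matrix α α F) : (α → F) →ₛₗ[σ] (α → F) →ₗ[F] F :=
  LinearMap.mk₂'ₛₗ σ (RingHom.id F) (fun x y => ∑ a, ∑ b, y a * G a b * σ (x b))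
    (fun _ _ _ => by simp [mul_add, Finset.sum_add_distrib])
    (fun _ _ _ => by simp [Finset.mul_sum, mul_left_comm])
    (fun _ _ _ => by simp [add_mul, Finset.sum_add_distrib])
    (fun _ _ _ => by simp [Finset.mul_sum, mul_assoc])

variable {σ : F →+* F}

theorem gB_apply (G : Matrix α α F) (x y : α → F) :
    gB σ G x y = ∑ a, ∑ b, y a * G a b * σ (x b) := rfl

theorem gB_symm (hσ : ∀ a, σ (σ a) = a) {G : Matrix α α F} {ε : F}
    (h : ∀ a b, G b a = ε * σ (G a b)) (x y : α → F) : gB σ G y x = ε * σ (gB σ G x y) := by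
  simp only [gB_apply, map_sum, map_mul, hσ, Finset.mul_sum]
  rw [Finset.sum_comm]
  exact Finset.sum_congr rfl fun a _ => Finset.sum_congr rfl fun b _ => by rw [h]; ring

theorem gB_single (G : Matrix α α F) (a b : α) :
    gB σ G (Pi.single b 1) (Pi.single a 1) = G a b := by
  simp [gB_apply, Pi.single_apply, apply_ite σ]

theorem gB_alt {G : Matrix α α F} (h : ∀ a b, G b a = -G a b) (h0 : ∀ a, G a a = 0) (x : α → F) :
    gB (RingHom.id F) G x x = 0 := by
  have := quad_eq_of_span (Q := LinearMap.BilinMap.toQuadraticMap (gB (RingHom.id F) G)) (Q' := 0)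
    (Pi.basisFun F α).span_eq (fun x y => by
      rw [LinearMap.BilinMap.polar_toQuadraticMap, gB_symm (ε := -1) (fun _ => rfl)
        (fun a b => by simp [h a b])]
      simp [QuadraticMap.polar]) (by
      rintro _ ⟨a, rfl⟩
      simp [gB_single, h0]) x
  simpa using this

/-- The tensor power of a Gram matrix. -/
abbrev pw (t : ℕ) (G : Matrix (Fin k) (Fin k) F) : Matrix (Fin t → Fin k) (Fin t → Fin k) F :=
  ptens fun _ => G

theorem pw_symm {G : Matrix (Fin k) (Fin k) F} {ε : F} (h : ∀ a b, G b a = ε * σ (G a b))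
    (a b : Fin t → Fin k) : pw t G b a = ε ^ t * σ (pw t G a b) := by
  simp only [ptens_apply, map_prod]
  rw [Finset.prod_congr rfl fun i _ => h (a i) (b i), Finset.prod_mul_distrib]
  simp

theorem gB_pj (G : Matrix (Fin k) (Fin k) F) (j : Fin (t + 1)) (r r' : (Fin t → Fin k) → F)
    (u u' : Fin k → F) :
    gB σ (pw (t + 1) G) (pj j r u) (pj j r' u') = gB σ (pw t G) r r' * gB σ G u u' := by
  simp only [gB_apply, pj_apply, ptens_apply, sum_split j, Finset.sum_mul_sum,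
    Fin.prod_univ_succAbove _ j, Fin.insertNth_apply_same, Fin.insertNth_apply_succAbove,
    Fin.removeNth_insertNth, map_mul]
  refine Finset.sum_congr rfl fun _ _ => Finset.sum_congr rfl fun _ _ => ?_
  exact Finset.sum_congr rfl fun _ _ => Finset.sum_congr rfl fun _ _ => by ring

theorem gB_perm (G : Matrix (Fin k) (Fin k) F) (s : Equiv.Perm (Fin t))
    (x y : (Fin t → Fin k) → F) :
    gB σ (pw t G) (fun a => x (a ∘ s)) (fun a => y (a ∘ s)) = gB σ (pw t G) x y := by
  simp only [gB_apply, ptens_apply]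
  refine Fintype.sum_equiv (Equiv.arrowCongr s.symm (Equiv.refl _)) _ _ fun a => ?_
  refine Fintype.sum_equiv (Equiv.arrowCongr s.symm (Equiv.refl _)) _ _ fun b => ?_
  rw [← Equiv.prod_comp s]
  rfl

variable {κ : Type} [Fintype κ] [DecidableEq κ]

theorem exists_crd (e : κ ≃ α) (P : GL κ F) (v : κ → F) :
    ∃ x, v = (P : Matrix κ κ F) *ᵥ (x ∘ e) :=
  ⟨crd e P v, ((crd e P).symm_apply_apply v).symm⟩

/-- The form on the tensor power. -/
theorem power_form {f : (κ → F) → (κ → F) → F} {f₁ : (Fin k → F) → (Fin k → F) → F}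
    {e : κ ≃ (Fin (t + 1) → Fin k)} {P : GL κ F} (hT : Geo.IsTensorPowerFormStructure σ f f₁ e P)
    (B₁ : (Fin k → F) →ₛₗ[σ] (Fin k → F) →ₗ[F] F) (h₁ : ∀ x y, f₁ x y = B₁ y x) :
    ∃ c : F, c ≠ 0 ∧ (∀ j r u r' u', f ((tsW e P j).τ r u) ((tsW e P j).τ r' u') =
      (c • gB σ (pw t (Geo.gramMatrix f₁))) r' r * f₁ u u') ∧
      ∀ s x y, f (piW e P s x) (piW e P s y) = f x y := by
  obtain ⟨c, hc, h⟩ := hT
  have h' : ∀ x y, f ((P : Matrix κ κ F) *ᵥ (x ∘ e)) ((P : Matrix κ κ F) *ᵥ (y ∘ e)) =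
      c * gB σ (pw (t + 1) (Geo.gramMatrix f₁)) y x := h
  refine ⟨c, hc, fun j r u r' u' => ?_, fun s x y => ?_⟩
  · rw [tsW_τ, tsW_τ, h', gB_pj, ← formOfGram_gram B₁ h₁ u u', ← mul_assoc]
    rfl
  · obtain ⟨x, rfl⟩ := exists_crd e P x
    obtain ⟨y, rfl⟩ := exists_crd e P y
    rw [piW_apply, piW_apply, h', h', gB_perm]

theorem gram_symm {f : (α → F) → (α → F) → F} {ε : F} (h : ∀ x y, f y x = ε * σ (f x y))
    (a b : α) : Geo.gramMatrix f b a = ε * σ (Geo.gramMatrix f a b) := h _ _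

theorem single_eq_prod (b : Fin t → Fin k) :
    (Pi.single b 1 : (Fin t → Fin k) → F) = fun a => ∏ i, (Pi.single (b i) 1 : Fin k → F) (a i) := by
  ext a
  simp [Pi.single_apply, Finset.prod_ite_zero, funext_iff]

theorem span_pure (e : κ ≃ (Fin t → Fin k)) (P : GL κ F) : Submodule.span F (Set.range
    fun xs : Fin t → Fin k → F => (P : Matrix κ κ F) *ᵥ ((fun a => ∏ i, xs i (a i)) ∘ e)) = ⊤ := by
  rw [eq_top_iff, ← ((Pi.basisFun F _).map (crd e P).symm).span_eq]
  refine Submodule.span_mono ?_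
  rintro _ ⟨b, rfl⟩
  exact ⟨fun i => Pi.single (b i) 1, by simp only [← single_eq_prod]; simp; rfl⟩

variable {e : κ ≃ (Fin (t + 1) → Fin k)} {P : GL κ F} {f₁ : (Fin k → F) → (Fin k → F) → F}

theorem alt_skew (hf : Geo.IsSymplecticForm f₁) (x y : Fin k → F) :
    f₁ y x = -1 * RingHom.id F (f₁ x y) := by
  have := LinearMap.IsAlt.neg (B := bilOf hf.bilinear) hf.alternating x y
  simpa [bilOf_apply] using this.symm

theorem power_bil {f : (κ → F) → (κ → F) → F} (hT : Geo.IsTensorPowerFormStructure id f f₁ e P)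
    (h₁ : Geo.IsBilinearForm f₁) {ε : F} (hε : ∀ x y, f₁ y x = ε * RingHom.id F (f₁ x y)) :
    ∃ BR : LinearMap.BilinForm F ((Fin t → Fin k) → F), (∀ x y, BR x y = ε ^ t * BR y x) ∧
      (t ≠ 0 → ε ^ t = -1 → (∀ x, f₁ x x = 0) → ∀ x, BR x x = 0) ∧
      (∀ j r u r' u', f ((tsW e P j).τ r u) ((tsW e P j).τ r' u') = BR r r' * bilOf h₁ u u') ∧
      ∀ s x y, f (piW e P s x) (piW e P s y) = f x y := by
  obtain ⟨c, -, h, h'⟩ := power_form (σ := RingHom.id F) hT (bilOf h₁).flip fun _ _ => rfl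
  have a := pw_symm (t := t) (gram_symm hε)
  refine ⟨(c • gB (RingHom.id F) (pw t (Geo.gramMatrix f₁))).flip, fun x y => ?_,
    fun ht h1 h2 x => ?_, h, h'⟩
  · simp [gB_symm (fun _ => rfl) a x y, mul_left_comm]
  · have := gB_alt (G := pw t (Geo.gramMatrix f₁)) (fun b b' => by simpa [h1] using a b b')
      (fun b => by simp [ptens_apply, Geo.gramMatrix, h2, ht]) x
    simp [this]

/-- Orthogonal factors. -/
theorem wf_sym [NeZero k] (h2 : (2 : F) ≠ 0) {Q : QuadraticForm F (κ → F)}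
    (hQ : (QuadraticMap.polarBilin Q).SeparatingLeft) (hf : Geo.IsSymmetricForm f₁)
    (hT : Geo.IsTensorPowerFormStructure id (QuadraticMap.polar Q) f₁ e P) :
    ∃ BR hR, WF (tsW e P) (symP h2 BR hR) (symP h2 (bilOf hf.bilinear) hf.symm) (PQ.ofQuad Q)
      (piW e P) := by
  obtain ⟨BR, h1, -, h3, h4⟩ := power_bil hT hf.bilinear (ε := 1) fun x y => by simp [hf.symm x]
  refine ⟨BR, fun x y => by simpa using h1 x y, multi_tsW e P, fun j => tf_sym_sym
    (sep_of_tensor hQ (h3 j)) (sep_of_nondeg hf.nondegenerate) hQ (h3 j), cN_piW e P,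
    fun s => PQ.mem_isom_ofQuad.2 fun x => ?_⟩
  simpa [QuadraticMap.polar_self, h2] using h4 s x x

/-- Symplectic factors in an orthogonal group. -/
theorem wf_alt_quad [NeZero k] (ht : t ≠ 0) (hε : (-1 : F) ^ t = -1) {Q : QuadraticForm F (κ → F)}
    (hQ : (QuadraticMap.polarBilin Q).SeparatingLeft) (hf : Geo.IsSymplecticForm f₁)
    (hT : Geo.IsTensorPowerFormStructure id (QuadraticMap.polar Q) f₁ e P)
    (hpure : ∀ xs : Fin (t + 1) → (Fin k → F),
      Q ((P : Matrix κ κ F) *ᵥ ((fun a : Fin (t + 1) → Fin k => ∏ i, xs i (a i)) ∘ e)) = 0) :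
    ∃ BR hR, WF (tsW e P) (PQ.ofAlt BR hR) (PQ.ofAlt (bilOf hf.bilinear) hf.alternating)
      (PQ.ofQuad Q) (piW e P) := by
  obtain ⟨BR, -, h2, h3, h4⟩ := power_bil hT hf.bilinear (alt_skew hf)
  refine ⟨BR, h2 ht hε hf.alternating, multi_tsW e P, fun j => tf_alt_alt
    (sep_of_tensor hQ (h3 j)) (sep_of_nondeg hf.nondegenerate) hQ (h3 j) fun r u => ?_, cN_piW e P,
    fun s => PQ.mem_isom_ofQuad.2 fun x => ?_⟩
  · refine quad_eq_of_span (Q := Q.comp ((tsW e P j).τ.flip u)) (Q' := 0) (Pi.basisFun F _).span_eq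
      (fun x y => ?_) ?_ r
    · have := h3 j x u y u
      simpa [QuadraticMap.polar, bilOf_apply, hf.alternating] using this
    · rintro _ ⟨b, rfl⟩
      refine Eq.trans ?_ (hpure (j.insertNth u fun i => Pi.single (b i) 1))
      simp only [QuadraticMap.comp_apply, LinearMap.flip_apply, tsW_τ, Pi.basisFun_apply]
      congr 3
      ext a
      simp [pj_apply, single_eq_prod, Fin.prod_univ_succAbove _ j, mul_comm, Fin.removeNth]
  · refine quad_eq_of_span (Q := Q.comp (piW e P s).toLinearMap) (span_pure e P)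
      (fun x y => by simpa [QuadraticMap.polar] using h4 s x y) ?_ x
    rintro _ ⟨xs, rfl⟩
    refine Eq.trans ?_ ((hpure fun i => xs (s.symm i)).trans (hpure xs).symm)
    simp only [QuadraticMap.comp_apply, LinearEquiv.coe_coe, piW_apply]
    congr 3
    ext a
    simp [← Equiv.prod_comp s (fun i => xs (s.symm i) (a i))]

/-- Symplectic factors in a symplectic group. -/
theorem wf_alt_alt [NeZero k] (h2 : (2 : F) ≠ 0) (ht : Even t) {B : LinearMap.BilinForm F (κ → F)}
    (hB : ∀ x, B x x = 0) (nB : B.SeparatingLeft) (hf : Geo.IsSymplecticForm f₁)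
    (hT : Geo.IsTensorPowerFormStructure id (fun x y => B x y) f₁ e P) :
    ∃ BR hR, WF (tsW e P) (symP h2 BR hR) (PQ.ofAlt (bilOf hf.bilinear) hf.alternating)
      (PQ.ofAlt B hB) (piW e P) := by
  obtain ⟨BR, h1, -, h3, h4⟩ := power_bil hT hf.bilinear (alt_skew hf)
  exact ⟨BR, fun x y => by simpa [ht.neg_one_pow] using h1 x y, multi_tsW e P,
    fun j => TF.flip (T := (tsW e P j).flip) (tf_alt_sym (sep_of_nondeg hf.nondegenerate)
      (sep_of_tensor nB (h3 j)) nB fun u r u' r' => (h3 j r u r' u').trans (mul_comm _ _)),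
    cN_piW e P, fun s => PQ.mem_isom_ofAlt.2 (h4 s)⟩

open H11.U in
/-- Unitary factors. -/
theorem wf_herm [NeZero k] [Fintype F] {q n : ℕ} [IsSq F q] {e : Fin n ≃ (Fin (t + 1) → Fin k)}
    {P : GL (Fin n) F} (hf : Geo.IsUnitaryFormPow q f₁)
    (hT : Geo.IsTensorPowerFormStructure (fun x : F => x ^ q) (hermForm n F q) f₁ e P) :
    ∃ BR hR, WF (tsW e P) (hP (q := q) BR hR) (hP (sesOf hf) (sesOf_herm hf)) (uP n F q)
      (piW e P) := by
  obtain ⟨c, -, h3, h4⟩ := power_form (σ := cj q) hT (sesOf hf) fun _ _ => rfl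
  have h5 : ∀ j r u r' u', (uP n F q).B ((tsW e P j).τ r u) ((tsW e P j).τ r' u') =
      (c • gB (cj q) (pw t (Geo.gramMatrix f₁))) r r' * sesOf hf u u' := fun j r u r' u' => h3 ..
  refine ⟨_, fun x y => ?_, multi_tsW e P, fun j => tf_herm (sep_of_tensor uP_nd (h5 j))
    (sesOf_sep hf) uP_nd (h5 j), cN_piW e P, fun s => PQ.mem_isom_ofHerm.2 fun x y => h4 s y x⟩
  obtain ⟨u, hu⟩ := exists_ne (0 : Fin k → F)
  obtain ⟨u', hu'⟩ := (hf.nondegenerate u hu).2
  have a1 := cj_form (n := n) (q := q) ((tsW e P 0).τ y u') ((tsW e P 0).τ x u)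
  rw [h3, h3, map_mul, show cj q (f₁ u' u) = f₁ u u' from (hf.herm _ _).symm] at a1
  exact mul_right_cancel₀ hu' a1

end Gram

end H28.Wr
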