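import Mathlib
import Cfsg.Agent.Base
import Cfsg.Agent.Lib.Wr7.Form
import Cfsg.Agent.Lib.Wr7.Cx
import Cfsg.Agent.Lib.Tensor.Core

/-!
Tensor powers of symplectic spaces: basic facts and extraction of pure tensors.
-/

set_option autoImplicit false
set_option linter.unusedSectionVars false
set_option linter.unusedSimpArgs false

namespace H28.Wr

open Module Cfsg H97 H11.Ten H11.Ten.TS

variable {F R U V : Type*} [Field F] [AddCommGroup R] [Module F R] [AddCommGroup U]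
  [Module F U] [AddCommGroup V] [Module F V] {PU : PQ F U (RingHom.id F)}

/-- A symplectic space. -/
structure Alt (P : PQ F U (RingHom.id F)) : Prop where
  nd : P.B.SeparatingLeft
  all : ∀ c, c ∈ P.Λ

namespace Alt

variable (h : Alt PU)
include h

theorem ε : PU.ε = -1 := by
  have := PU.tr_mem 1 (h.all 1)
  simp only [RingHom.id_apply, mul_one] at this
  linear_combination this

theorem self (x : U) : PU.B x x = 0 := PU.self_eq_zero (h.all _)

theorem skew (x y : U) : PU.B y x = -PU.B x y := by rw [PU.symm, h.ε]; simp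

theorem sq (w : U) : r1 PU w w * r1 PU w w = 0 := by ext; simp [h.self]

theorem has_eu {w v : U} (hv : PU.B w v = 0) (c : F) : ∃ β ∈ EG PU, ∀ x,
    β x = x + (PU.B v x + c * PU.B w x) • w + PU.B w x • v := by
  obtain ⟨β, h1, h2⟩ := has_eu_EG (h.all _) hv (h.all (c - PU.q v))
  exact ⟨β, h1, fun x => by simp [h2, eu_apply, h.ε]⟩

theorem has_tv (w : U) (c : F) : ∃ β ∈ EG PU, ∀ x, β x = x + (c * PU.B w x) • w := by
  simpa using h.has_eu (w := w) (v := 0) (by simp) c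

theorem isoK : IsoK PU 1 := fun X hX => by
  obtain ⟨x, hx, hx0⟩ := Submodule.exists_mem_ne_zero_of_ne_bot
    (p := X) (fun e => by rw [e, finrank_bot] at hX; omega)
  exact ⟨x, hx, hx0, h.all _⟩

theorem cN_r1 {β : U ≃ₗ[F] U} (hβ : β ∈ EG PU) (u v : U) :
    cN β (r1 PU u v) = r1 PU (β u) (β v) := by
  ext x; rw [cN_apply, r1_apply, B_isom_inv' (EG_le_isom hβ), map_smul, r1_apply]

theorem r1_ne {u v : U} (hu : u ≠ 0) (hv : v ≠ 0) : r1 PU u v ≠ 0 := fun e => by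
  obtain ⟨y, hy⟩ := exists_B_eq h.nd hv 1
  simpa [hy, hu] using LinearMap.congr_fun e y

theorem B_ne {w : U} (hw : w ≠ 0) : PU.B w ≠ 0 := fun e => by
  obtain ⟨y, hy⟩ := exists_B_eq h.nd hw 1
  simp [e] at hy

theorem trans {w w' : U} (hw : w ≠ 0) (hw' : w' ≠ 0) : ∃ β ∈ EG PU, β w = w' := by
  have key : ∀ w w' : U, PU.B w' w ≠ 0 → ∃ β ∈ EG PU, β w = w' := fun w w' e => by
    obtain ⟨β, h1, h2⟩ := h.has_tv (w' - w) (PU.B w' w)⁻¹
    exact ⟨β, h1, by simp [h2, h.self, e]⟩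
  obtain ⟨f, h1, h2⟩ : ∃ f, PU.B w f ≠ 0 ∧ PU.B w' f ≠ 0 := by
    obtain ⟨a, ha⟩ := exists_B_ne h.nd hw
    obtain ⟨b, hb⟩ := exists_B_ne h.nd hw'
    by_cases h1 : PU.B w' a = 0
    · by_cases h2 : PU.B w b = 0
      · exact ⟨a + b, by simpa [h2], by simpa [h1]⟩
      · exact ⟨b, h2, hb⟩
    · exact ⟨a, ha, h1⟩
  obtain ⟨β, a1, a2⟩ := key w f (B_ne_zero_symm h1)
  obtain ⟨γ, b1, b2⟩ := key f w' h2
  exact ⟨γ * β, (EG PU).mul_mem b1 a1, by rw [le_mul_apply, a2, b2]⟩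

variable [FiniteDimensional F U]

theorem mem_EG {β : U ≃ₗ[F] U} (hβ : ∀ x y, PU.B (β x) (β y) = PU.B x y) : β ∈ EG PU :=
  isom_le_of_qrefl h.nd EG_le_isom (fun _ _ e => has_qrefl_EG_of_sing (h.all _) e) le_rfl
    ⟨hβ, fun _ => h.all _⟩

theorem eq_top {S : Submodule F (Module.End F U)} (hS : ∀ u v, r1 PU u v ∈ S) : S = ⊤ :=
  eq_top_of_rank_one fun w φ => by
    obtain ⟨y, hy⟩ := exists_repr_dual PU.σσ PU.B h.nd φ
    rw [← show PU.B y = φ from LinearMap.ext hy]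
    exact hS w y

theorem top_of_tv {A : Subalgebra F (Module.End F U)} (hA : ∀ w, r1 PU w w ∈ A) (a : Module.End F U) :
    a ∈ A := by
  have key : ∀ u v, PU.B u v ≠ 0 → r1 PU u v ∈ A := fun u v e =>
    mem_of_smul (A.mul_mem (hA u) (hA v)) e fun z => by simp [smul_smul, mul_comm]
  have := h.eq_top (S := A.toSubmodule) fun u v => by
    by_cases e : PU.B u v = 0
    swap
    · exact key u v e
    by_cases hu : u = 0
    · exact mem_of_eq A.zero_mem fun z => by simp [hu]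
    obtain ⟨f, hf⟩ := exists_B_ne h.nd hu
    exact mem_of_eq (A.sub_mem (key u (v + f) (by simpa [e])) (key u f hf)) fun z => by
      simp [add_smul]
  exact (this ▸ Submodule.mem_top : a ∈ A.toSubmodule)

theorem exists_perp_notMem (hk : 3 ≤ finrank F U) (y u : U) : ∃ v, PU.B y v = 0 ∧ v ∉ F ∙ u := by
  by_contra hc
  push Not at hc
  have h1 := finrank_inf_ker ⊤ (PU.B y)
  have h2 := Submodule.finrank_mono (show ⊤ ⊓ LinearMap.ker (PU.B y) ≤ F ∙ u from fun v hv => hc v hv.2)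
  have := finrank_span_singleton_le (F := F) u
  rw [finrank_top] at h1
  omega

theorem top_of_m (hk : 3 ≤ finrank F U) {A : Subalgebra F (Module.End F U)}
    (hA : ∀ u v, r1 PU u v - r1 PU v u ∈ A) (a : Module.End F U) : a ∈ A := by
  have h1 := sq_eq_top hk (D := A.toSubmodule) fun u φ e => by
    obtain ⟨y, hy⟩ := exists_repr_dual PU.σσ PU.B h.nd φ
    obtain ⟨v, a1, a2⟩ := h.exists_perp_notMem hk y u
    obtain ⟨x, b1, b2⟩ := exists_perp_ne h.nd a2 1
    refine mem_of_eq (A.mul_mem (hA u v) (hA x y)) fun z => ?_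
    simp [← hy, b1, b2, PU.eq_zero_symm a1, PU.eq_zero_symm ((hy u).trans e)]
  have h2 : A.toSubmodule * A.toSubmodule ≤ A.toSubmodule :=
    Submodule.mul_le.2 fun a ha b hb => A.mul_mem ha hb
  exact h2 (h1 ▸ Submodule.mem_top)

theorem good (hk : 3 ≤ finrank F U) : Good (EG PU) := by
  have : Nontrivial U := Module.nontrivial_of_finrank_pos (R := F) (by omega)
  obtain ⟨u, hu⟩ := exists_ne (0 : U)
  exact good_of_lambda le_rfl h.nd (fun _ _ => h.all _) ⟨u, hu, h.all _⟩ (h.all 1) one_ne_zero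
    (Or.inl hk) (Or.inr fun _ => h.all _)

end Alt

variable (T : TS F R U V) {PR : PQ F R (RingHom.id F)} {P : PQ F V (RingHom.id F)}
  {M : Subgroup (V ≃ₗ[F] V)}

theorem psi_r1 (u v : U) (x : V) : psi T (r1 PU u v) x = T.τ (T.cB PU v x) u := psi_e T _ _ _

theorem opE_tv {β : U ≃ₗ[F] U} {w : U} {c : F} (e : ∀ x, β x = x + (c * PU.B w x) • w) (x : V) :
    T.opE 1 β x = x + (c • psi T (r1 PU w w)) x := by
  rw [opE_one_apply, show (β : Module.End F U) = 1 + c • r1 PU w w from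
    LinearMap.ext fun x => by simp [e, mul_smul]]
  simp

theorem Alt.psi_sq (h : Alt PU) (w : U) : psi T (r1 PU w w) * psi T (r1 PU w w) = 0 := by
  rw [← map_mul, h.sq, map_zero]

variable {T}

theorem InvS.tv (h : Alt PU) {S : Submodule F (Module.End F V)} (hS : InvS T (EG PU) S) (w : U)
    (c : F) {x : Module.End F V} (hx : x ∈ S) : c • psi T (r1 PU w w) * x -
      x * c • psi T (r1 PU w w) - c • psi T (r1 PU w w) * x * c • psi T (r1 PU w w) ∈ S := by
  obtain ⟨β, h1, h2⟩ := h.has_tv w c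
  have := S.sub_mem (hS β h1 x hx) hx
  rwa [cN_sq (opE_tv T h2) (by simp [h.psi_sq]), add_sub_cancel_left] at this

theorem InvS.conj {Γ : Subgroup (U ≃ₗ[F] U)} {S : Submodule F (Module.End F V)} (hS : InvS T Γ S)
    {γ : U ≃ₗ[F] U} (hγ : γ ∈ Γ) {d : Module.End F U} {c : Module.End F V}
    (hc : ∀ a, Commute c (psi T a)) (h : psi T d * c ∈ S) : psi T (cN γ d) * c ∈ S := by
  have := hS γ hγ _ h
  rwa [cN_mul, cN_opE_psi, cN_opE_of_comm T γ hc] at this

variable [FiniteDimensional F R] [FiniteDimensional F U]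

/-- Extraction of a pure tensor from an invariant subspace. -/
theorem InvS.extract (h : Alt PU) (hk : 3 ≤ finrank F U) {S : Submodule F (Module.End F V)}
    (hS : InvS T (EG PU) S) {x : Module.End F V} (hx : x ∈ S) (hx' : ¬ ∀ a, Commute x (psi T a)) :
    ∃ s, s ≠ 0 ∧ ((∃ u, u ≠ 0 ∧ psi T (r1 PU u u) * chi T s ∈ S) ∨ ∃ u v, u ≠ 0 ∧ PU.B u v = 0 ∧
      v ∉ F ∙ u ∧ psi T (r1 PU u v - r1 PU v u) * chi T s ∈ S) := by
  obtain ⟨u, v, hu, h1, h2, h3⟩ : ∃ u v, u ≠ 0 ∧ PU.B u v = 0 ∧ v ∉ F ∙ u ∧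
      co T (PU.B u) v x ≠ 0 := by
    by_contra hc
    push Not at hc
    refine hx' (comm_of_co T (by omega) fun w φ e => ?_)
    obtain ⟨y, hy⟩ := exists_repr_dual PU.σσ PU.B h.nd φ
    rw [← show PU.B y = φ from LinearMap.ext hy]
    by_cases hy0 : y = 0
    · ext; simp [hy0, co_apply]
    have e' := (hy w).trans e
    by_cases hw : w ∈ F ∙ y
    swap
    · exact hc y w hy0 e' hw
    obtain ⟨v, a1, a2⟩ := h.exists_perp_notMem hk y y
    have a3 := hc y (w + v) hy0 (by simp [e', a1]) fun hm => a2 (by simpa using Submodule.sub_mem _ hm hw)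
    ext r
    simpa [co_apply, show ∀ r, T.cW (PU.B y) (x (T.τ r v)) = 0 from
      fun r => LinearMap.congr_fun (hc y v hy0 a1 a2) r] using LinearMap.congr_fun a3 r
  have h4 := PU.eq_zero_symm h1
  set a := co T (PU.B u) v x
  set b := co T (PU.B v) u x
  have h5 : psi T (r1 PU u v) * chi T a + psi T (r1 PU v u) * chi T b ∈ S := by
    convert S.neg_mem (hS.tv h u 1 (hS.tv h v 1 hx)) using 1
    rw [r1, r1, ← psi_mul_mul_psi, ← psi_mul_mul_psi]
    ext y
    simp [psi_e, r1, h1, h4, h.self]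
    abel
  by_cases h6 : a + b = 0
  · refine ⟨a, h3, Or.inr ⟨u, v, hu, h1, h2, ?_⟩⟩
    rwa [map_sub, sub_mul, sub_eq_add_neg, ← mul_neg, ← map_neg, neg_eq_of_add_eq_zero_right h6]
  obtain ⟨y, c1, c2⟩ := exists_perp_ne h.nd h2 (-1)
  obtain ⟨β, d1, d2⟩ := h.has_eu c1 0
  have d3 := S.sub_mem (hS β d1 _ h5) h5
  simp only [cN_add, cN_mul, cN_opE_psi, h.cN_r1 d1,
    cN_opE_of_comm T β fun a' => (commute_psi_chi T a' _).symm] at d3
  refine ⟨a + b, h6, Or.inl ⟨u, hu, ?_⟩⟩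
  convert d3 using 1
  refine T.lext fun r z => ?_
  simp [d2, h.self, h1, h.skew v y, c2, PU.eq_zero_symm c1, add_smul]
  abel

theorem Alt.ext [Finite F] (h : Alt PU) (hk : 3 ≤ finrank F U) (T : TS F R U V) : Ext T (EG PU) := by
  have : Nontrivial U := Module.nontrivial_of_finrank_pos (R := F) (by omega)
  have nu : ∀ d : Module.End F U, d * d = 0 → ¬ IsUnit d := fun d e hd => by
    simpa [e] using hd.mul hd
  refine ext_of_good (by omega) (h.good hk) fun A hA x hx hx' => ?_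
  obtain ⟨s, hs, ⟨u, h1, h2⟩ | ⟨u, v, h1, h2, h3, h4⟩⟩ := hA.extract h hk hx hx'
  · exact ⟨_, s, h.r1_ne h1 h1, nu _ (h.sq u), hs, h2⟩
  · refine ⟨_, s, fun e => ?_, nu _ ?_, hs, h4⟩
    · obtain ⟨y, a1, a2⟩ := exists_perp_ne h.nd h3 1
      simpa [a1, a2, h1] using LinearMap.congr_fun e y
    · ext; simp [h.self, h2, PU.eq_zero_symm h2]

end H28.Wr
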