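import Mathlib
import Cfsg.Agent.Base
import Cfsg.Agent.Lib.Wr7.Sp1

/-!
Tensor powers of symplectic spaces of dimension at least four: the levels are scalar.
-/

set_option autoImplicit false
set_option linter.unusedSectionVars false
set_option linter.unusedSimpArgs false

namespace H28.Wr

open Module Cfsg H97 H11.Ten H11.Ten.TS

variable {F R U V : Type*} [Field F] [AddCommGroup R] [Module F R] [AddCommGroup U]
  [Module F U] [AddCommGroup V] [Module F V]

section General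

variable {σ : F →+* F} {T T' : TS F R U V} {PR : PQ F R σ} {PU : PQ F U σ} {P : PQ F V σ}
  {M : Subgroup (V ≃ₗ[F] V)}

theorem tf_mapT (h : TF T PR PU P) {g : V ≃ₗ[F] V} (hg : g ∈ P.Isom) : TF (mapT T g) PR PU P where
  ndU := h.ndU
  ndW := h.ndW
  nd := h.nd
  B_τ u w u' w' := (B_isom hg _ _).trans (h.B_τ u w u' w')
  ε_eq := h.ε_eq
  isom k hk e := by
    have := h.isom _ ((mem_TG_mapT T).1 hk) fun x y => by
      rw [le_mul_apply, le_mul_apply, le_mul_apply, le_mul_apply, B_isom (P.Isom.inv_mem hg), e,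
        B_isom hg]
    simpa [mul_assoc] using P.Isom.mul_mem (P.Isom.mul_mem hg this) (P.Isom.inv_mem hg)
  sing u w e := isom_q hg (h.sing u w e)
  maxU := h.maxU
  maxW := h.maxW
  hΛ := h.hΛ

theorem psi_r1' (T : TS F R U V) (u v : U) (x : V) :
    psi T (r1 PU u v) x = T.τ (T.cB PU v x) u := psi_e T _ _ _

theorem adj_chi [Nontrivial U] (h : TF T PR PU P) {s s' : Module.End F R}
    (e : ∀ x y, P.B (chi T s x) y = P.B x (chi T s' y)) (r r' : R) :
    PR.B (s r) r' = PR.B r (s' r') := by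
  obtain ⟨u, hu⟩ := exists_ne (0 : U)
  obtain ⟨u', hu'⟩ := exists_B_eq h.ndW hu 1
  simpa [h.B_τ, hu'] using e (T.τ r u) (T.τ r' u')

theorem B_ext (T : TS F R U V) {f g : Module.End F V} {c : F}
    (e : ∀ r u r' u', P.B (f (T.τ r u)) (T.τ r' u') = c * P.B (T.τ r u) (g (T.τ r' u'))) (x y : V) :
    P.B (f x) y = c * P.B x (g y) := by
  refine T.ind (p := fun x => P.B (f x) y = c * P.B x (g y)) x (by simp) (fun r u => ?_)
    fun a b ha hb => by simp [ha, hb, mul_add]
  exact T.ind (p := fun y => P.B (f (T.τ r u)) y = c * P.B (T.τ r u) (g y)) y (by simp) (e r u)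
    fun a b ha hb => by simp [ha, hb, mul_add]

variable (T PU M) in
/-- The level as a space of endomorphisms of `V`. -/
noncomputable def LV : Submodule F (Module.End F V) := (T.levF PU M).map (chi T).toLinearMap

variable (T PU M) in
/-- The multiplier algebra of the level. -/
noncomputable def AL : Subalgebra F (Module.End F V) := (T.algF PU M).map (chi T)

variable [FiniteDimensional F U] [Nontrivial U]

theorem mem_LV {c : Module.End F V} : c ∈ LV T PU M ↔ (∀ a, Commute c (psi T a)) ∧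
    ∀ w y, PU.q w ∈ PU.Λ → PU.B w y = 0 → ∃ k ∈ M, ∀ x, psi T (r1 PU w w) x = 0 →
      k x = x + c (psi T (r1 PU w y) x) := by
  have key : ∀ w x, psi T (r1 PU w w) x = 0 ↔ T.cB PU w x = 0 := fun w x => by
    rw [psi_r1', T.τ_eq_zero]
    exact ⟨fun h => h.elim id (by rintro rfl; simp [cB_zero]), Or.inl⟩
  constructor
  · rintro ⟨s, hs, rfl⟩
    refine ⟨fun a => (commute_psi_chi T a s).symm, fun w y h1 h2 => ?_⟩
    obtain ⟨-, k, hk, e⟩ := hs w y h1 h2
    exact ⟨k, hk, fun x hx => by simp [e x ((key w x).1 hx), psi_r1']⟩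
  · rintro ⟨h1, h2⟩
    obtain ⟨s, rfl⟩ := exists_chi_of_comm T h1
    refine ⟨s, fun w y a1 a2 => ⟨fun u => by simp [PU.eq_zero_symm a2], ?_⟩, rfl⟩
    obtain ⟨k, hk, e⟩ := h2 w y a1 a2
    exact ⟨k, hk, fun x hx => by simp [e x ((key w x).2 hx), psi_r1']⟩

theorem mem_AL {c : Module.End F V} : c ∈ AL T PU M ↔ (∀ a, Commute c (psi T a)) ∧
    ∀ c' ∈ LV T PU M, c' * c ∈ LV T PU M := by
  constructor
  · rintro ⟨s, hs, rfl⟩
    refine ⟨fun a => (commute_psi_chi T a s).symm, ?_⟩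
    rintro _ ⟨s', hs', rfl⟩
    exact ⟨_, hs s' hs', map_mul (chi T) _ _⟩
  · rintro ⟨h1, h2⟩
    obtain ⟨s, rfl⟩ := exists_chi_of_comm T h1
    refine ⟨s, fun s' hs' => ?_, rfl⟩
    obtain ⟨s'', a1, a2⟩ := h2 _ ⟨s', hs', rfl⟩
    rwa [← chi_injective T (a2.trans (map_mul (chi T) _ _).symm)]

theorem LV_conj {g : V ≃ₗ[F] V} (hg : g ∈ M) (e : ∀ a, cN g (psi T a) = psi T' a)
    {c : Module.End F V} (hc : c ∈ LV T PU M) : cN g c ∈ LV T' PU M := by
  rw [mem_LV] at hc ⊢
  refine ⟨fun a => e a ▸ commute_cN g (hc.1 a), fun w y h1 h2 => ?_⟩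
  obtain ⟨k, hk, e'⟩ := hc.2 w y h1 h2
  refine ⟨g * k * g⁻¹, M.mul_mem (M.mul_mem hg hk) (M.inv_mem hg), fun x hx => ?_⟩
  rw [le_mul_apply, le_mul_apply, e' _ (by simpa [← e, cN_apply] using hx)]
  simp [← e, cN_apply]

theorem AL_conj {g : V ≃ₗ[F] V} (hg : g ∈ M) (e : ∀ a, cN g (psi T a) = psi T' a)
    {c : Module.End F V} (hc : c ∈ AL T PU M) : cN g c ∈ AL T' PU M := by
  rw [mem_AL] at hc ⊢
  refine ⟨fun a => e a ▸ commute_cN g (hc.1 a), fun c' hc' => ?_⟩
  have := LV_conj hg e (hc.2 _ (LV_conj (M.inv_mem hg) (fun a => by rw [← e, cN_inv_cN]) hc'))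
  rwa [cN_mul, cN_cN_inv] at this

theorem scalar_of_chi {s : Module.End F R} {c : F} (e : chi T s = c • 1) : s = c • LinearMap.id :=
  chi_injective T (by rw [map_smul]; exact e.trans (by rw [← map_one (chi T)]; rfl))

end General

variable {T T' : TS F R U V} {PR : PQ F R (RingHom.id F)} {PU : PQ F U (RingHom.id F)}
  {P : PQ F V (RingHom.id F)} {M : Subgroup (V ≃ₗ[F] V)}

/-- A group of isometries containing the symplectic group of the second factor. -/
structure Sx (T : TS F R U V) (PR : PQ F R (RingHom.id F)) (PU : PQ F U (RingHom.id F))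
    (P : PQ F V (RingHom.id F)) (M : Subgroup (V ≃ₗ[F] V)) : Prop where
  tf : TF T PR PU P
  alt : Alt PU
  hW : ∀ β ∈ EG PU, T.opE 1 β ∈ M
  hI : M ≤ P.Isom

namespace Sx

variable (h : Sx T PR PU P M)
include h

theorem map {g : V ≃ₗ[F] V} (hg : g ∈ M) : Sx (mapT T g) PR PU P M :=
  ⟨tf_mapT h.tf (h.hI hg), h.alt, fun β hβ => by
    rw [opE_mapT]; exact M.mul_mem (M.mul_mem hg (h.hW β hβ)) (M.inv_mem hg), h.hI⟩

theorem has (w : U) (c : F) : Has M fun x => x + (c • psi T (r1 PU w w)) x := by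
  obtain ⟨β, h1, h2⟩ := h.alt.has_tv w c
  exact ⟨_, h.hW β h1, opE_tv T h2⟩

theorem skew (u v : U) (x y : V) :
    P.B (psi T (r1 PU u v) x) y = -1 * P.B x (psi T (r1 PU v u) y) :=
  B_ext T (fun r a r' b => by simp [h.tf.B_τ, h.alt.skew a v]; ring) x y

theorem cx [FiniteDimensional F U] [Nontrivial R] (hk : 3 ≤ finrank F U) : Cx T PR PU P M :=
  ⟨h.tf, h.hW, h.hI, ⟨1, h.alt.isoK, hk⟩, hk, extr_of_top h.alt.all, exists_ne 0⟩

end Sx

variable [FiniteDimensional F R] [FiniteDimensional F U] [Nontrivial R] [Finite F]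
  {ι : Type*} [Fintype ι] [DecidableEq ι]

theorem inv_cent {S : Set (Module.End F V)} {g : V ≃ₗ[F] V} (h : ∀ x ∈ S, cN g⁻¹ x ∈ S)
    {y : Module.End F V} (hy : y ∈ Subalgebra.centralizer F S) :
    cN g y ∈ Subalgebra.centralizer F S := by
  rw [Subalgebra.mem_centralizer_iff] at hy ⊢
  intro x hx
  rw [← cN_cN_inv g x, ← cN_mul, hy _ (h x hx), cN_mul]

/-- An invariant commutative space is scalar. -/
theorem Multi.scalar_of_comm {T : ι → TS F R U V} (hm : Multi T) (hk : 2 ≤ finrank F U)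
    {Γ : Subgroup (U ≃ₗ[F] U)} (hE : ∀ i, Ext (T i) Γ) (S : Finset ι) {D : Set (Module.End F V)}
    (h0 : ∀ x ∈ D, ∀ y ∈ D, x * y = y * x) (h1 : ∀ i ∉ S, ∀ x ∈ D, ∀ a, Commute x (psi (T i) a))
    (h2 : ∀ i ∈ S, ∀ γ ∈ Γ, ∀ x ∈ D, cN ((T i).opE 1 γ) x ∈ D) : ∀ x ∈ D, ∃ c : F, x = c • 1 := by
  have a1 : ∀ x ∈ D, x ∈ Subalgebra.centralizer F (Subalgebra.centralizer F D : Set _) :=
    fun x hx => (Subalgebra.mem_centralizer_iff F).2 fun y hy =>
      ((Subalgebra.mem_centralizer_iff F).1 hy x hx).symm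
  rcases hm.main hk hE S (Subalgebra.centralizer F (Subalgebra.centralizer F D : Set _))
    (fun i hi x hx a => ((Subalgebra.mem_centralizer_iff F).1 hx _
      ((Subalgebra.mem_centralizer_iff F).2 fun y hy => h1 i hi y hy a)).symm)
    (fun i hi γ hγ x hx => inv_cent (fun y hy => inv_cent (fun z hz => by
      rw [inv_inv]; exact h2 i hi γ hγ z hz) hy) hx) with h | ⟨i, -, h⟩
  · exact fun x hx => h x (a1 x hx)
  refine ((Same.refl (T i)).not_comm hk fun a b => ?_).elim
  refine ((Subalgebra.mem_centralizer_iff F).1 (h b) _ ((Subalgebra.mem_centralizer_iff F).2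
    fun y hy => (Subalgebra.mem_centralizer_iff F).1 (h a) y ?_))
  exact (Subalgebra.mem_centralizer_iff F).2 fun z hz => h0 z hz y hy

variable {T : ι → TS F R U V} (hm : Multi T) (hb : 3 ≤ finrank F U)
  (hM : ∀ i, Sx (T i) PR PU P M)
include hm hb hM

theorem algF_scalar (hc : Cyc T M) (hne : ¬ EG P ≤ M) (j : ι) :
    ∀ s ∈ (T j).algF PU M, ∃ c : F, s = c • LinearMap.id := by
  have : Nontrivial U := Module.nontrivial_of_finrank_pos (R := F) (by omega)
  have hA := (hM j).alt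
  rcases hm.main (by omega) (fun i => hA.ext hb (T i)) (Finset.univ.erase j) (AL (T j) PU M)
    (fun i hi x hx => by
      obtain rfl : i = j := by simpa using hi
      exact (mem_AL.1 hx).1)
    (fun i hi γ hγ x hx => AL_conj ((hM i).hW γ hγ) (fun a =>
      cN_opE_of_comm _ _ (hm.comm j i (Finset.mem_erase.1 hi).1.symm a)) hx) with h | ⟨i, hi, h⟩
  · exact fun s hs => (h _ ⟨s, hs, rfl⟩).imp fun c => scalar_of_chi
  exfalso
  have h1 := full_of_cyc (r := fun i j => ∀ a, psi (T i) a ∈ AL (T j) PU M)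
    (fun i j l hij hjl hil h1 h2 => by
    refine hA.top_of_m hb (A := (AL (T l) PU M).comap (psi (T i))) fun u v => ?_
    change psi (T i) _ ∈ AL (T l) PU M
    obtain ⟨w, hw⟩ := exists_ne (0 : U)
    have C := (hM j).cx hb
    obtain ⟨f, y₁, y₂, -, b1, b2, -, b3, -, b4⟩ := C.exists_perp_pair hw (hA.all _)
    obtain ⟨s, hs, e⟩ := h1 (r1 PU u v)
    obtain ⟨s', -, e'⟩ := h1 (-r1 PU v u)
    obtain ⟨y, hy, ey⟩ := C.hasS_comm (hA.all _) b2 b3 (C.algF_le hs) C.one_mem_levF (s₁' := s')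
      (s₂' := 1) (adj_chi C.tf fun x y => by
        rw [show chi (T j) s = _ from e, show chi (T j) s' = _ from e', (hM i).skew]; simp)
      fun _ _ => rfl
    set a := r1 PU u v - r1 PU v u
    have c1 := hm.comm i j hij a
    have e1 : ∀ x, y x = x + (psi (T i) a * psi (T j) (r1 PU w w)) x := fun x => by
      rw [ey, hA.skew y₁ y₂, b4, show psi (T i) a = chi (T j) (s + s') by
        rw [map_add, show chi (T j) s = _ from e, show chi (T j) s' = _ from e', ← map_add,
          ← sub_eq_add_neg]]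
      simp [psi_r1, add_comm, cB]
    have c2 := AL_conj hy (fun b => cN_of_commute (by
      rw [show (y : Module.End F V) = 1 + psi (T i) a * psi (T j) (r1 PU w w) from LinearMap.ext e1]
      exact (Commute.one_left _).add_left ((hm.comm i l hil a b).mul_left (hm.comm j l hjl _ b))))
      (h2 (r1 PU f w))
    have c4 : r1 PU f w * r1 PU w w = 0 := by ext; simp [hA.self]
    have c5 : r1 PU w w * r1 PU f w = r1 PU w w := by ext; simp [b1]
    rw [cN_sq e1 (by
      rw [mul_assoc, ← mul_assoc (psi (T j) _), ← (c1 _).eq, mul_assoc, hA.psi_sq]; simp),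
      mul_assoc, ← map_mul, c5, ← mul_assoc, ← (c1 _).eq, mul_assoc (psi (T i) a), ← map_mul, c4,
      mul_assoc, ← mul_assoc (psi (T j) _), ← (c1 _).eq, mul_assoc, hA.psi_sq] at c2
    have c6 := eq_top_of_ideal (S := (AL (T l) PU M).toSubmodule.comap
      (LinearMap.mulLeft F (psi (T i) a) ∘ₗ (psi (T j)).toLinearMap)) (fun b s hs => by
        change psi (T i) a * psi (T j) (b * s) ∈ AL (T l) PU M
        rw [map_mul, ← mul_assoc, (c1 _).eq, mul_assoc]
        exact Subalgebra.mul_mem _ (h2 b) hs) (fun b s hs => by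
        change psi (T i) a * psi (T j) (s * b) ∈ AL (T l) PU M
        rw [map_mul, ← mul_assoc]
        exact Subalgebra.mul_mem _ hs (h2 b)) (s := r1 PU w w)
      (by simpa using Subalgebra.sub_mem _ c2 (h2 (r1 PU f w))) (hA.r1_ne hw hw)
    have c7 : (1 : Module.End F U) ∈ (AL (T l) PU M).toSubmodule.comap
      (LinearMap.mulLeft F (psi (T i) a) ∘ₗ (psi (T j)).toLinearMap) := c6 ▸ Submodule.mem_top
    simpa using c7) (fun i j l hij hjl hil h1 a => by
    obtain ⟨g, hg, e1, e2⟩ := hc i j l hij hjl hil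
    exact e1 a ▸ AL_conj hg e2 (h1 a)) (Finset.mem_erase.1 hi).1 h
  have h2 := eq_top_of_gen (T j) (S := (T j).algF PU M) fun A a1 a2 => hm.gen A fun i a => by
    by_cases hij : i = j
    · exact hij ▸ a1 a
    obtain ⟨s, hs, e⟩ := h1 i hij a
    exact e ▸ a2 s hs
  exact hne (((hM j).cx hb).EG_le_of_top fun s => ((hM j).cx hb).algF_le (h2 ▸ Algebra.mem_top))

theorem psi_mem_of_comm {i j : ι} {K : Submodule F (Module.End F V)}
    (k0 : ∀ x ∈ K, ∀ a, Commute x (psi (T i) a)) (k2 : ∀ j, j ≠ i → InvS (T j) (EG PU) K)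
    {d : Module.End F U} (hd : d ≠ 0) {s : Module.End F R} (hs : s ≠ 0)
    (h3 : psi (T j) d * chi (T j) s ∈ K) (h4 : ∀ s s', psi (T j) d * chi (T j) s ∈ K →
      psi (T j) d * chi (T j) s' ∈ K → s * s' = s' * s) : psi (T j) d ∈ K := by
  have : Nontrivial U := Module.nontrivial_of_finrank_pos (R := F) (by omega)
  obtain ⟨c, hc⟩ : ∃ c : F, chi (T j) s = c • 1 := by
    refine hm.scalar_of_comm (by omega) (fun l => (hM i).alt.ext hb (T l))
      ((Finset.univ.erase i).erase j) (D := {c | ∃ s, chi (T j) s = c ∧ psi (T j) d * c ∈ K})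
      ?_ ?_ ?_ _ ⟨s, rfl, h3⟩
    · rintro _ ⟨s, rfl, a⟩ _ ⟨s', rfl, a'⟩
      rw [← map_mul, h4 s s' a a', map_mul]
    · rintro l hl _ ⟨s, rfl, a⟩ b
      by_cases hlj : l = j
      · rw [hlj]; exact (commute_psi_chi _ b s).symm
      have hli : l = i := by simpa [hlj] using hl
      by_contra hne
      refine mul_ne_zero_of_comm (T j) (x := chi (T j) s * psi (T l) b - psi (T l) b * chi (T j) s)
        (fun b' => ((commute_psi_chi _ b' s).symm.mul_left (hm.comm l j hlj b b')).sub_left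
          ((hm.comm l j hlj b b').mul_left (commute_psi_chi _ b' s).symm))
        (sub_ne_zero.2 hne) hd ?_
      rw [mul_sub, ← mul_assoc, hli, (k0 _ a b).eq, ← hli, ← mul_assoc, ← mul_assoc,
        (hm.comm l j hlj b d).eq, sub_self]
    · rintro l hl γ hγ _ ⟨s, rfl, a⟩
      obtain ⟨hlj, hl⟩ := Finset.mem_erase.1 hl
      have e1 : ∀ b, cN ((T l).opE 1 γ) (psi (T j) b) = psi (T j) b := fun b =>
        cN_opE_of_comm _ _ fun a => (hm.comm l j hlj a b).symm
      obtain ⟨s', e⟩ := exists_chi_of_comm (T j) (x := cN ((T l).opE 1 γ) (chi (T j) s)) fun b => by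
        rw [← e1 b]; exact commute_cN _ (commute_psi_chi _ b s).symm
      refine ⟨s', e.symm, ?_⟩
      rw [← e1 d, ← cN_mul]
      exact k2 l (Finset.mem_erase.1 hl).1 γ hγ _ a
  have hc0 : c ≠ 0 := by rintro rfl; exact hs (by simpa using scalar_of_chi hc)
  rwa [hc, mul_smul_comm, mul_one, K.smul_mem_iff hc0] at h3

/-- An invariant space of skew maps with scalar anticommutators vanishes. -/
theorem clifford (h2 : (2 : F) ≠ 0) {i : ι} {K : Submodule F (Module.End F V)}
    (k0 : ∀ x ∈ K, ∀ a, Commute x (psi (T i) a)) (ks : ∀ c ∈ K, ∀ x y, P.B (c x) y = -P.B x (c y))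
    (k1 : ∀ c ∈ K, ∀ c' ∈ K, ∃ l : F, c * c' + c' * c = l • 1)
    (k2 : ∀ j, j ≠ i → InvS (T j) (EG PU) K) : ∀ x ∈ K, x = 0 := fun x hx => by
  have hA := (hM i).alt
  by_cases h0 : ∀ j a, Commute x (psi (T j) a)
  · obtain ⟨c, rfl⟩ := hm.scalar h0
    refine LinearMap.ext fun a => (hM i).tf.nd _ fun b => ?_
    have := ks _ hx a b
    simp only [LinearMap.smul_apply, Module.End.one_apply, B_smul_left, map_smul, smul_eq_mul,
      RingHom.id_apply] at this ⊢
    exact (mul_eq_zero.1 (show 2 * (c * P.B a b) = 0 by linear_combination this)).resolve_left h2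
  exfalso
  rw [not_forall] at h0
  obtain ⟨j, h0⟩ := h0
  have hj : j ≠ i := by rintro rfl; exact h0 (k0 x hx)
  obtain ⟨s, hs, h1⟩ := (k2 j hj).extract hA hb hx h0
  obtain ⟨r, hr⟩ := exists_ne (0 : R)
  rcases h1 with ⟨u, hu, h1⟩ | ⟨u, v, hu, huv, hv, h1⟩
  · obtain ⟨y, hy⟩ := exists_B_eq hA.nd hu (-1)
    obtain ⟨γ, a1, a2⟩ := hA.has_tv y 1
    obtain ⟨z, b1, b2, b3⟩ := exists_ker_two hb (PU.B u) (PU.B y)
    have h3 : ∀ s s', psi (T j) (r1 PU u u) * chi (T j) s ∈ K →
        psi (T j) (r1 PU u u) * chi (T j) s' ∈ K → s * s' = 0 := fun s s' a a' => by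
      obtain ⟨l, hl⟩ := k1 _ a _ ((k2 j hj).conj a1 (fun b => (commute_psi_chi _ b s').symm) a')
      rw [hA.cN_r1 a1, a2, hA.skew u y, hy] at hl
      have c1 := LinearMap.congr_fun hl ((T j).τ r z)
      simp [b2, b3, (T j).τ_eq_zero, hr, b1, eq_comm (a := (0 : V))] at c1
      refine LinearMap.ext fun r' => ?_
      simpa [c1, hA.self, hA.skew u y, hy, (T j).τ_eq_zero, hu] using
        LinearMap.congr_fun hl ((T j).τ r' u)
    have h4 := psi_mem_of_comm hm hb hM k0 k2 (hA.r1_ne hu hu) hs h1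
      fun s s' a a' => by rw [h3 s s' a a', h3 s' s a' a]
    simpa using h3 1 1 (by simpa) (by simpa)
  · obtain ⟨y, a0, hy⟩ := exists_perp_ne hA.nd hv (-1)
    obtain ⟨γ, a1, a2⟩ := hA.has_tv y 1
    obtain ⟨f, hf⟩ := exists_B_eq hA.nd hu 1
    have hvu := PU.eq_zero_symm huv
    have h4 := psi_mem_of_comm hm hb hM k0 k2
      (fun e => by simpa [a0, hy, hu] using LinearMap.congr_fun e y) hs h1 fun s s' a a' => by
      obtain ⟨l, hl⟩ := k1 _ a _ ((k2 j hj).conj a1 (fun b => (commute_psi_chi _ b s').symm) a')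
      rw [cN_sub, hA.cN_r1 a1, hA.cN_r1 a1, a2, a2, hA.skew v y, hy, PU.eq_zero_symm a0] at hl
      have c1 := LinearMap.congr_fun hl ((T j).τ r u)
      simp [hA.self, hvu, PU.eq_zero_symm a0, (T j).τ_eq_zero, hr, hu, eq_comm (a := (0 : V))] at c1
      refine LinearMap.ext fun r' => (T j).col_injective hu ?_
      have c2 := LinearMap.congr_fun hl ((T j).τ r' f)
      simp [c1, hA.self, huv, hvu, a0, hy, hf, hA.skew v y, PU.eq_zero_symm a0] at c2
      simp
      linear_combination (norm := module) c2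
    obtain ⟨r', hr'⟩ := exists_B_eq (hM i).tf.ndU hr 1
    have c3 := ks _ h4 ((T j).τ r y) ((T j).τ r' f)
    simp [(hM j).tf.B_τ, a0, hy, hf, hr', hA.skew v y, PU.eq_zero_symm a0] at c3
    exact h2 (by linear_combination -c3)

theorem levF_scalar_odd (h2 : (2 : F) ≠ 0) (i : ι)
    (hS : ∀ s ∈ (T i).algF PU M, ∃ c : F, s = c • LinearMap.id) :
    ∀ s ∈ (T i).levF PU M, ∃ c : F, s = c • LinearMap.id := by
  have : Nontrivial U := Module.nontrivial_of_finrank_pos (R := F) (by omega)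
  have hA := (hM i).alt
  have C := (hM i).cx hb
  have k3 := clifford hm hb hM h2 (i := i) (K := LV (T i) PU M ⊓
    { carrier := {c | ∀ x y, P.B (c x) y = -P.B x (c y)}
      add_mem' := fun ha hb x y => by simp [ha x y, hb x y, add_comm]
      zero_mem' := fun x y => by simp
      smul_mem' := fun c a ha x y => by simp [ha x y] }) (fun x hx => (mem_LV.1 hx.1).1)
    (fun c hc => hc.2) (by
      rintro _ ⟨⟨s, hs, rfl⟩, e⟩ _ ⟨⟨s', hs', rfl⟩, e'⟩
      obtain ⟨l, hl⟩ := hS _ (C.comm_mem_algF 1 hs hs' (s₁' := -s) (s₂' := -s')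
        (adj_chi C.tf fun x y => by simpa using e x y) (adj_chi C.tf fun x y => by simpa using e' x y))
      refine ⟨-l, ?_⟩
      have := congrArg (chi (T i)) hl
      rw [show (l • LinearMap.id : Module.End F R) = l • 1 from rfl] at this
      simp [hA.ε] at this
      rw [neg_smul, ← this]
      change chi (T i) s * chi (T i) s' + chi (T i) s' * chi (T i) s = _
      abel) fun j hj γ hγ x hx =>
    ⟨LV_conj ((hM j).hW γ hγ) (fun a => cN_opE_of_comm _ _ (hm.comm i j hj.symm a)) hx.1,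
      fun a b => by
        have := (hM j).hI ((hM j).hW γ hγ)
        rw [cN_apply, cN_apply, ← B_isom_inv' this, hx.2, B_isom_inv this]⟩
  intro s hs
  obtain ⟨s', e⟩ := exists_adj C.tf.ndU s
  obtain ⟨l, hl⟩ := hS _ (C.comm_mem_algF 1 hs C.one_mem_levF e (s₂' := 1) fun _ _ => rfl)
  have e1 : ∀ r, s' r = l • r - s r := fun r => by
    simpa [hA.ε, eq_sub_iff_add_eq] using LinearMap.congr_fun hl r
  refine ⟨l / 2, chi_injective (T i) (sub_eq_zero.1 (k3 _ ⟨?_, fun x y => ?_⟩))⟩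
  · exact Submodule.sub_mem _ ⟨s, hs, rfl⟩ ⟨_, Submodule.smul_mem _ _ C.one_mem_levF, rfl⟩
  · rw [← map_sub, B_ext (T i) (c := -1) (g := chi (T i) (s - (l / 2) • LinearMap.id))
      (fun r a r' b => ?_), neg_one_mul]
    simp [C.tf.B_τ, e, e1]
    field_simp
    ring

theorem levF_scalar (hd : 5 ≤ finrank F U ∨ (2 : F) ≠ 0) (hc : Cyc T M) (hne : ¬ EG P ≤ M) (i : ι) :
    ∀ s ∈ (T i).levF PU M, ∃ c : F, s = c • LinearMap.id :=
  hd.elim (fun h s hs => algF_scalar hm hb hM hc hne i s (((hM i).cx hb).levF_le_algF h hs))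
    fun h => levF_scalar_odd hm hb hM h i (algF_scalar hm hb hM hc hne i)

end H28.Wr
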