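import Mathlib
import Cfsg.Agent.Base
import Cfsg.Agent.Lib.Wr7.Sp2

/-!
Tensor powers of symplectic planes: the level is scalar.
-/

set_option autoImplicit false
set_option linter.unusedSectionVars false
set_option linter.unusedSimpArgs false

namespace H28.Wr

open Module Cfsg H97 H11.Ten H11.Ten.TS

variable {F R U V : Type*} [Field F] [AddCommGroup R] [Module F R] [AddCommGroup U]
  [Module F U] [AddCommGroup V] [Module F V] {T T' : TS F R U V} {PR : PQ F R (RingHom.id F)}
  {PU : PQ F U (RingHom.id F)} {P : PQ F V (RingHom.id F)} {M : Subgroup (V ≃ₗ[F] V)}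

theorem Alt.kill (h : Alt PU) {c : Module.End F V} (hc : ∀ a, Commute c (psi T a)) (w : U) (x : V) :
    psi T (r1 PU w w) (c (psi T (r1 PU w w) x)) = 0 := by
  rw [← Module.End.mul_apply, ← Module.End.mul_apply, ← (hc _).eq, mul_assoc, h.psi_sq]; simp

/-- The central level. -/
def ZV (h : Alt PU) (T : TS F R U V) (M : Subgroup (V ≃ₗ[F] V)) : Submodule F (Module.End F V) where
  carrier := {c | (∀ a, Commute c (psi T a)) ∧
    ∀ (w : U) (t : F), Has M fun x => x + t • c (psi T (r1 PU w w) x)}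
  add_mem' {a b} ha hb := ⟨fun x => (ha.1 x).add_left (hb.1 x), fun w t =>
    ((ha.2 w t).comp (hb.2 w t)).congr fun x => by simp [h.kill hb.1]; abel⟩
  zero_mem' := ⟨fun _ => Commute.zero_left _, fun w t => has_id.congr fun x => by simp⟩
  smul_mem' c a ha := ⟨fun x => (ha.1 x).smul_left c, fun w t =>
    (ha.2 w (t * c)).congr fun x => by simp [mul_smul]⟩

theorem ZV_conj (h : Alt PU) {g : V ≃ₗ[F] V} (hg : g ∈ M) (e : ∀ a, cN g (psi T a) = psi T' a)
    {c : Module.End F V} (hc : c ∈ ZV h T M) : cN g c ∈ ZV h T' M :=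
  ⟨fun a => e a ▸ commute_cN g (hc.1 a), fun w t =>
    ((hc.2 w t).conj hg).congr fun x => by simp [← e, cN_apply]⟩

variable (P) in
/-- The maps with adjoint `ε • x`. -/
def Adj (ε : F) : Submodule F (Module.End F V) where
  carrier := {c | ∀ x y, P.B (c x) y = ε * P.B x (c y)}
  add_mem' ha hb x y := by simp [ha x y, hb x y, mul_add]
  zero_mem' x y := by simp
  smul_mem' c a ha x y := by simp [ha x y]; ring

theorem Adj.eq_zero (h2 : (2 : F) ≠ 0) (nd : P.B.SeparatingLeft) {c : Module.End F V}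
    (h : c ∈ Adj P 1) (h' : c ∈ Adj P (-1)) : c = 0 := LinearMap.ext fun x => nd _ fun y =>
  (mul_eq_zero.1 (show 2 * P.B (c x) y = 0 by linear_combination h x y + h' x y)).resolve_left h2

section Two

variable [FiniteDimensional F U]

theorem Alt.dec (h : Alt PU) (hk : finrank F U = 2) {e f : U} (hef : PU.B e f = 1) (x : U) :
    x = PU.B x f • e - PU.B x e • f := by
  have h1 : f ∉ F ∙ e := fun hc => by
    obtain ⟨c, rfl⟩ := Submodule.mem_span_singleton.1 hc
    simp [h.self] at hef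
  have h2 := Submodule.finrank_sup_span_singleton h1
  rw [finrank_span_singleton (by rintro rfl; simp at hef)] at h2
  obtain ⟨c, d, rfl⟩ := mem_two (x := x)
    (Submodule.eq_top_of_finrank_eq (h2.trans hk.symm) ▸ Submodule.mem_top)
  simp [h.self, hef, h.skew e f]

theorem Alt.perp_two (h : Alt PU) (hk : finrank F U = 2) {w y : U} (hw : w ≠ 0)
    (e : PU.B w y = 0) : ∃ c : F, y = c • w := by
  obtain ⟨f, hf⟩ := exists_B_eq h.nd hw 1
  exact ⟨_, by simpa [PU.eq_zero_symm e] using h.dec hk hf y⟩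

theorem Alt.top_two (h : Alt PU) (hk : finrank F U = 2) (h2 : (2 : F) ≠ 0)
    {S : Submodule F (Module.End F U)} (h1 : 1 ∈ S) (hS : ∀ w, r1 PU w w ∈ S) : S = ⊤ :=
  h.eq_top fun u v => by
    by_cases hu : u = 0
    · convert S.zero_mem; ext; simp [hu]
    obtain ⟨f, hf⟩ := exists_B_eq h.nd hu 1
    refine (S.smul_mem_iff h2).1 ?_
    convert S.add_mem (S.sub_mem (S.sub_mem (hS (u + v)) (hS u)) (hS v)) (S.smul_mem (PU.B v u) h1)
      using 1
    ext x
    rw [h.dec hk hf x, h.dec hk hf v]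
    simp [h.self, hf, h.skew u f]
    module

end Two

namespace Sx

variable (h : Sx T PR PU P M)
include h

theorem mem_ZV (h2 : (2 : F) ≠ 0) {c : Module.End F V} (hc : ∀ a, Commute c (psi T a)) {w : U}
    (hw : w ≠ 0) (e : Has M fun x => x + c (psi T (r1 PU w w) x)) : c ∈ ZV h.alt T M := by
  have key : ∀ w', Has M fun x => x + c (psi T (r1 PU w' w') x) := fun w' => by
    by_cases hw' : w' = 0
    · exact has_id.congr fun x => by simp [hw', psi_r1]
    obtain ⟨β, h1, rfl⟩ := h.alt.trans hw hw'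
    refine (e.conj (h.hW β h1)).congr fun x => ?_
    conv_rhs => rw [← h.alt.cN_r1 h1, ← cN_opE_psi, ← cN_opE_of_comm T β hc]
    simp [cN_apply]
  refine ⟨hc, fun w' t => ((key (((t + 1) / 2) • w')).comp
    (has_neg (A := c ∘ₗ psi T (r1 PU (((t - 1) / 2) • w') (((t - 1) / 2) • w'))) (key _)
      fun x => by simp [h.alt.kill hc])).congr fun x => ?_⟩
  have e1 : ∀ a : F, r1 PU (a • w') (a • w') = (a * a) • r1 PU w' w' := fun a => by
    ext; simp [smul_smul]; ring_nf
  simp [e1, h.alt.kill hc, add_sub_assoc', sub_add_eq_add_sub, add_sub_assoc, ← sub_smul]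
  congr 1
  field_simp
  ring

theorem ZV_le_adj : ZV h.alt T M ≤ Adj P 1 := fun c hc x y => by
  have key : ∀ w x, P.B (c (psi T (r1 PU w w) x)) y = P.B (psi T (r1 PU w w) x) (c y) := fun w x => by
    obtain ⟨g, hg, e⟩ := hc.2 w 1
    have a1 := B_isom (h.hI hg) x y
    have a2 : ∀ z, c (psi T (r1 PU w w) z) = psi T (r1 PU w w) (c z) := fun z =>
      LinearMap.congr_fun (hc.1 _).eq z
    have a3 := h.skew w w (c x) (psi T (r1 PU w w) (c y))
    rw [← a2 y, h.alt.kill hc.1] at a3
    simp only [e, one_smul, map_add, LinearMap.add_apply, a2 x, a3] at a1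
    rw [a2, h.skew w w x, ← a2 y]
    simp only [map_zero, mul_zero] at a1
    linear_combination a1
  refine T.ind (p := fun x => P.B (c x) y = 1 * P.B x (c y)) x (by simp) (fun r u => ?_)
    fun a b ha hb => by simp [ha, hb]
  by_cases hu : u = 0
  · simp [hu]
  obtain ⟨f, hf⟩ := exists_B_eq h.alt.nd hu 1
  simpa [hf] using key u (T.τ r f)

variable [FiniteDimensional F U] (hk : finrank F U = 2) (h2 : (2 : F) ≠ 0)
include hk h2

theorem jordan {n s : Module.End F V} (hn : n ∈ ZV h.alt T M) (hs : s ∈ ZV h.alt T M)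
    (hnn : n * n = 0) : n * s + s * n ∈ ZV h.alt T M := by
  have : Nontrivial U := Module.nontrivial_of_finrank_pos (R := F) (by omega)
  have key : ∀ n ∈ ZV h.alt T M, n * n = 0 → (1 + n) * s * (1 + n) ∈ ZV h.alt T M := fun n hn hnn => by
    obtain ⟨e, he⟩ := exists_ne (0 : U)
    obtain ⟨f, hf⟩ := exists_B_eq h.alt.nd he 1
    have c1 : ∀ a, Commute (1 + n) (psi T a) := fun a => (Commute.one_left _).add_left (hn.1 a)
    refine h.mem_ZV h2 (fun a => ((c1 a).mul_left (hs.1 a)).mul_left (c1 a)) he ?_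
    obtain ⟨n, rfl⟩ := exists_chi_of_comm T hn.1
    obtain ⟨s, rfl⟩ := exists_chi_of_comm T hs.1
    have a0 : ∀ r, n (n r) = 0 := fun r =>
      LinearMap.congr_fun (chi_injective T ((map_mul _ _ _).trans (hnn.trans (map_zero _).symm))) r
    obtain ⟨g, hg, eg⟩ := (h.has e 1).comp ((hn.2 f (-1)).comp ((h.has e (-1)).comp
      ((hn.2 f 1).comp (hn.2 e 1))))
    have a1 : ∀ r, g (T.τ r e) = T.τ (r + n r) e := fun r => by
      simp [eg, h.alt.self, hf, h.alt.skew e f, a0]
      abel
    have a2 : ∀ r, g (T.τ r f) = T.τ (r - n r) f := fun r => by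
      simp [eg, h.alt.self, hf, h.alt.skew e f, a0]
      abel
    have a3 : T.cB PU e ∘ₗ g = (1 - n) ∘ₗ T.cB PU e := T.lext fun r u => by
      rw [h.alt.dec hk hf u]
      simp [a1, a2, h.alt.self, hf, smul_sub]
      abel
    refine ((hs.2 e 1).conj hg).congr fun x => ?_
    have a4 := LinearMap.congr_fun a3 (g⁻¹ x)
    simp only [LinearMap.comp_apply, LinearEquiv.coe_coe, le_apply_inv] at a4
    simp [psi_r1, a1, a4, a0]
  refine ((ZV h.alt T M).smul_mem_iff h2).1 ?_
  convert Submodule.sub_mem _ (key n hn hnn) (key (-n) (Submodule.neg_mem _ hn) (by simp [hnn]))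
    using 1
  rw [two_smul]
  noncomm_ring

end Sx

end H28.Wr
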