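import Mathlib
import Cfsg.Agent.Base
import Cfsg.Agent.Lib.Wr7.Sp3

/-!
Tensor powers of symplectic planes: monomials.
-/

set_option autoImplicit false
set_option linter.unusedSectionVars false
set_option linter.unusedSimpArgs false

namespace H28.Wr

open Module Cfsg H97 H11.Ten H11.Ten.TS
open scoped commutatorElement

theorem all_triples {ι : Type*} [DecidableEq ι] {r : ι → ι → ι → Prop}
    (hs : ∀ i a b, r i a b → r i b a)
    (hc : ∀ i a b, i ≠ a → i ≠ b → a ≠ b → r i a b → r a b i)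
    (hr : ∀ i a b c, i ≠ a → i ≠ b → a ≠ b → c ≠ i → c ≠ a → c ≠ b → r i a b → r i b c)
    {i a b : ι} (h1 : i ≠ a) (h2 : i ≠ b) (h3 : a ≠ b) (h : r i a b) {x y z : ι} (h4 : x ≠ y)
    (h5 : x ≠ z) (h6 : y ≠ z) : r x y z := by
  have last : ∀ i a b c, i ≠ a → i ≠ b → a ≠ b → c ≠ i → c ≠ a → r i a b → r i a c :=
    fun i a b c e1 e2 e3 e4 e5 h => by
    by_cases e : c = b
    · exact e ▸ h
    · exact hr i b a c e2 e1 e3.symm e4 e e5 (hs _ _ _ h)
  have mid : ∀ i a b c, i ≠ a → i ≠ b → a ≠ b → c ≠ i → r i a b → ∃ d, i ≠ d ∧ c ≠ d ∧ r i c d :=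
    fun i a b c e1 e2 e3 e4 h => by
    by_cases e : c = a
    · exact ⟨b, e2, e ▸ e3, e ▸ h⟩
    · exact ⟨a, e1, e, hs _ _ _ (last i a b c e1 e2 e3 e4 e h)⟩
  obtain ⟨c, d, e1, e2, e3, h⟩ : ∃ c d, x ≠ c ∧ x ≠ d ∧ c ≠ d ∧ r x c d := by
    by_cases e : x = i
    · exact ⟨a, b, e ▸ h1, e ▸ h2, h3, e ▸ h⟩
    obtain ⟨d, e1, e2, h⟩ := mid i a b x h1 h2 h3 e h
    exact ⟨d, i, e2, e, e1.symm, hc i x d (Ne.symm e) e1 e2 h⟩
  obtain ⟨d, e4, e5, h⟩ := mid x c d y e1 e2 e3 h4.symm h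
  exact last x y d z h4 e4 e5 h5.symm h6.symm h

variable {F R U V : Type*} [Field F] [AddCommGroup R] [Module F R] [AddCommGroup U]
  [Module F U] [AddCommGroup V] [Module F V] {PR : PQ F R (RingHom.id F)}
  {PU : PQ F U (RingHom.id F)} {P : PQ F V (RingHom.id F)} {M : Subgroup (V ≃ₗ[F] V)}

variable (PU) in
/-- The symplectic Lie algebra of the second factor. -/
def sl (T : TS F R U V) : Submodule F (Module.End F V) :=
  Submodule.span F (Set.range fun w => psi T (r1 PU w w))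

theorem tv_mem_sl (T : TS F R U V) (w : U) : psi T (r1 PU w w) ∈ sl PU T :=
  Submodule.subset_span ⟨w, rfl⟩

theorem sl_le {T : TS F R U V} {S : Submodule F (Module.End F V)}
    (h : ∀ w, psi T (r1 PU w w) ∈ S) : sl PU T ≤ S :=
  Submodule.span_le.2 (by rintro _ ⟨w, rfl⟩; exact h w)

theorem psi_of_mem_sl {T : TS F R U V} {x : Module.End F V} (h : x ∈ sl PU T) : ∃ a, psi T a = x :=
  sl_le (S := LinearMap.range (psi T).toLinearMap) (fun _ => ⟨_, rfl⟩) h

theorem sl_mul_le {T : TS F R U V} {N S : Submodule F (Module.End F V)}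
    (h : ∀ w, ∀ m ∈ N, psi T (r1 PU w w) * m ∈ S) : sl PU T * N ≤ S :=
  Submodule.mul_le.2 fun _ ha m hm =>
    sl_le (S := S.comap (LinearMap.mulRight F m)) (fun w => h w m hm) ha

theorem h_mem_sl (T : TS F R U V) (e f : U) : psi T (r1 PU e f + r1 PU f e) ∈ sl PU T := by
  convert Submodule.sub_mem _ (Submodule.sub_mem _ (tv_mem_sl T (e + f)) (tv_mem_sl T e))
    (tv_mem_sl T f) using 1
  rw [← map_sub, ← map_sub]
  congr 1
  ext; simp [add_smul]; abel

variable {ι : Type*} [Fintype ι] [DecidableEq ι] {T : ι → TS F R U V} (hm : Multi T)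

variable (PU) in
/-- The span of the monomials supported on `J`. -/
noncomputable def mon (J : Finset ι) : Submodule F (Module.End F V) :=
  J.noncommProd (fun j => sl PU (T j)) fun i _ j _ hij => by
    have : ∀ i j, i ≠ j → sl PU (T i) * sl PU (T j) ≤ sl PU (T j) * sl PU (T i) := fun i j hij =>
      Submodule.mul_le.2 fun a ha b hb => by
        obtain ⟨a', rfl⟩ := psi_of_mem_sl ha
        obtain ⟨b', rfl⟩ := psi_of_mem_sl hb
        exact (hm.comm i j hij a' b').eq ▸ Submodule.mul_mem_mul hb ha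
    exact le_antisymm (this i j hij) (this j i hij.symm)

theorem mon_empty : mon PU hm ∅ = 1 := rfl

theorem mon_insert {J : Finset ι} {j : ι} (hj : j ∉ J) :
    mon PU hm (insert j J) = sl PU (T j) * mon PU hm J := Finset.noncommProd_insert_of_notMem _ _ _ _ hj

theorem mon_comm {J : Finset ι} {l : ι} (hl : l ∉ J) {x : Module.End F V} (hx : x ∈ mon PU hm J)
    (a : Module.End F U) : Commute x (psi (T l) a) := by
  induction J using Finset.induction_on generalizing x with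
  | empty =>
    obtain ⟨c, rfl⟩ := Submodule.mem_one.1 hx
    exact Algebra.commutes _ _
  | insert j J hj ih =>
    rw [Finset.mem_insert, not_or] at hl
    rw [mon_insert hm hj] at hx
    refine Submodule.mul_induction_on hx (fun b hb c hc => ?_) fun _ _ => Commute.add_left
    obtain ⟨b', rfl⟩ := psi_of_mem_sl hb
    exact (hm.comm j l (Ne.symm hl.1) b' a).mul_left (ih hl.2 hc)

theorem mon_adj (hM : ∀ i, Sx (T i) PR PU P M) (J : Finset ι) :
    mon PU hm J ≤ Adj P ((-1) ^ J.card) := by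
  induction J using Finset.induction_on with
  | empty => exact Submodule.one_le.2 fun x y => by simp
  | insert j J hj ih =>
    rw [mon_insert hm hj, Finset.card_insert_of_notMem hj]
    refine sl_mul_le fun w m hm' x y => ?_
    rw [← (mon_comm hm hj hm' _).eq, Module.End.mul_apply, ih hm', (hM j).skew, Module.End.mul_apply,
      ← Module.End.mul_apply m, (mon_comm hm hj hm' _).eq, Module.End.mul_apply]
    ring

variable [FiniteDimensional F R] [FiniteDimensional F U] [Nontrivial R] (hk : finrank F U = 2)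
  (h2 : (2 : F) ≠ 0)
include hk h2

theorem mon_span (hA : Alt PU) (i : ι) (s : Module.End F R) :
    chi (T i) s ∈ ⨆ J : {J : Finset ι // i ∉ J}, mon PU hm J := by
  have : Nontrivial U := Module.nontrivial_of_finrank_pos (R := F) (by omega)
  set W := ⨆ J : {J : Finset ι // i ∉ J}, mon PU hm J
  have a0 : ∀ J, i ∉ J → mon PU hm J ≤ W := fun J hJ =>
    le_iSup (fun J : {J : Finset ι // i ∉ J} => mon PU hm J) ⟨J, hJ⟩
  have a1 : ∀ l, l ≠ i → ∀ J, i ∉ J → l ∉ J → ∀ x ∈ mon PU hm J, ∀ a, psi (T l) a * x ∈ W :=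
    fun l hl J hi hJ x hx a => by
    have := hA.top_two hk h2 (S := W.comap (LinearMap.mulRight F x ∘ₗ (psi (T l)).toLinearMap))
      (by simpa using a0 J hi hx) fun w => a0 (insert l J) (by simp [hi, hl.symm])
        (mon_insert hm hJ ▸ Submodule.mul_mem_mul (tv_mem_sl _ w) hx)
    exact (this ▸ Submodule.mem_top : a ∈ W.comap _)
  let S : Subalgebra F (Module.End F R) :=
    { carrier := {s | ∀ x ∈ W, chi (T i) s * x ∈ W}
      mul_mem' := fun ha hb x hx => by rw [map_mul, mul_assoc]; exact ha _ (hb x hx)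
      add_mem' := fun ha hb x hx => by rw [map_add, add_mul]; exact W.add_mem (ha x hx) (hb x hx)
      algebraMap_mem' := fun c x hx => by
        rw [AlgHom.commutes, Algebra.algebraMap_eq_smul_one, smul_mul_assoc, one_mul]
        exact W.smul_mem c hx }
  have a2 := eq_top_of_gen (T i) (S := S) fun A b1 b2 => hm.gen A fun l a => by
    by_cases hl : l = i
    · exact hl ▸ b1 a
    obtain ⟨s, e⟩ := exists_chi_of_comm (T i) (hm.comm l i hl a)
    refine e ▸ b2 s fun x hx => ?_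
    rw [← e]
    refine (iSup_le fun J x hx => ?_ : W ≤ W.comap (LinearMap.mulLeft F (psi (T l) a))) hx
    by_cases hJ : l ∈ J.1
    swap
    · exact a1 l hl J J.2 hJ x hx a
    rw [← Finset.insert_erase hJ, mon_insert hm (Finset.notMem_erase _ _)] at hx
    refine Submodule.mul_induction_on hx (fun b hb c hc => ?_) fun _ _ => Submodule.add_mem _
    obtain ⟨b', rfl⟩ := psi_of_mem_sl hb
    change psi (T l) a * _ ∈ W
    rw [← mul_assoc, ← map_mul]
    exact a1 l hl _ (fun e => J.2 (Finset.mem_of_mem_erase e)) (Finset.notMem_erase _ _) c hc _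
  simpa using (a2 ▸ Algebra.mem_top : s ∈ S) 1 (a0 ∅ (by simp) (Submodule.one_le.1 le_rfl))

theorem mon_sq (hA : Alt PU) (J : Finset ι) : ∃ v ∈ mon PU hm J, v * v = 1 := by
  have : Nontrivial U := Module.nontrivial_of_finrank_pos (R := F) (by omega)
  obtain ⟨e, he⟩ := exists_ne (0 : U)
  obtain ⟨f, hf⟩ := exists_B_eq hA.nd he 1
  induction J using Finset.induction_on with
  | empty => exact ⟨1, Submodule.one_le.1 le_rfl, one_mul _⟩
  | insert j J hj ih =>
    obtain ⟨v, h1, h3⟩ := ih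
    refine ⟨_, mon_insert hm hj ▸ Submodule.mul_mem_mul (h_mem_sl _ e f) h1, ?_⟩
    rw [mul_assoc, ← mul_assoc v, (mon_comm hm hj h1 _).eq, mul_assoc, h3, mul_one, ← map_mul,
      ← map_one (psi (T j))]
    congr 1
    ext x
    rw [hA.dec hk hf x]
    simp [hA.self, hf, hA.skew e f, sub_eq_add_neg]

variable (hM : ∀ i, Sx (T i) PR PU P M)
include hM

theorem mon_extract {i : ι} {y : Module.End F V} (hy : y ∈ ZV (hM i).alt (T i) M)
    (hy' : ∀ c : F, y ≠ c • 1) : ∃ J, J.Nonempty ∧ i ∉ J ∧ mon PU hm J ≤ ZV (hM i).alt (T i) M := by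
  classical
  have : Nontrivial U := Module.nontrivial_of_finrank_pos (R := F) (by omega)
  have hA := (hM i).alt
  let p : Finset ι → Prop := fun J => i ∉ J ∧ ∃ c, c ≠ 0 ∧ (J = ∅ → ∀ a : F, c ≠ a • 1) ∧
    (∀ j ∈ insert i J, ∀ a, Commute c (psi (T j) a)) ∧ ∀ m ∈ mon PU hm J, m * c ∈ ZV hA (T i) M
  obtain ⟨J, hJ, hmax⟩ := Finset.exists_max_image (Finset.univ.filter p) Finset.card
    ⟨∅, Finset.mem_filter.2 ⟨Finset.mem_univ _, by simp, y, by simpa using hy' 0, fun _ => hy',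
      by simpa using hy.1, fun m hm' => by
        obtain ⟨c, rfl⟩ := Submodule.mem_one.1 hm'
        rw [← Algebra.smul_def]; exact Submodule.smul_mem _ _ hy⟩⟩
  obtain ⟨hi, c, c0, c1, c2, c3⟩ := (Finset.mem_filter.1 hJ).2
  by_cases h0 : ∀ l a, Commute c (psi (T l) a)
  · obtain ⟨a, rfl⟩ := hm.scalar h0
    refine ⟨J, Finset.nonempty_iff_ne_empty.2 fun e => c1 e a rfl, hi, fun m hm' => ?_⟩
    have := c3 m hm'
    rwa [mul_smul_comm, mul_one, Submodule.smul_mem_iff _ (by rintro rfl; simp at c0)] at this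
  exfalso
  rw [not_forall] at h0
  obtain ⟨l, h0⟩ := h0
  have hl : l ∉ insert i J := fun e => h0 (c2 l e)
  rw [Finset.mem_insert, not_or] at hl
  obtain ⟨w, hw⟩ : ∃ w, co (T l) (PU.B w) w c ≠ 0 := by
    by_contra hc
    push Not at hc
    refine h0 (comm_of_co _ hk.ge fun w φ e => ?_)
    obtain ⟨y, hy⟩ := exists_repr_dual PU.σσ PU.B hA.nd φ
    rw [← show PU.B y = φ from LinearMap.ext hy]
    by_cases hy0 : y = 0
    · ext; simp [hy0, co_apply]
    obtain ⟨a, rfl⟩ := hA.perp_two hk hy0 ((hy w).trans e)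
    ext r
    simpa [co_apply] using Or.inr (LinearMap.congr_fun (hc y) r)
  have hw0 : w ≠ 0 := by rintro rfl; exact hw (by ext; simp [co_apply])
  set c' := chi (T l) (co (T l) (PU.B w) w c)
  have e1 : psi (T l) (r1 PU w w) * c * psi (T l) (r1 PU w w) = psi (T l) (r1 PU w w) * c' :=
    psi_mul_mul_psi ..
  have e2 : ∀ a, Commute c' (psi (T l) a) := fun a => (commute_psi_chi _ a _).symm
  have inv : InvS (T l) (EG PU) (ZV hA (T i) M) := fun γ hγ x hx =>
    ZV_conj hA ((hM l).hW γ hγ) (fun a => cN_opE_of_comm _ _ (hm.comm i l (Ne.symm hl.1) a)) hx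
  have := hmax (insert l J) (Finset.mem_filter.2 ⟨Finset.mem_univ _, by simp [hi, Ne.symm hl.1], c',
    fun e => hw (chi_injective _ (e.trans (map_zero _).symm)), fun e => by simp at e,
    fun j hj a => ?_, ?_⟩)
  · simp [hl.2] at this
  · by_cases hjl : j = l
    · exact hjl ▸ e2 a
    by_contra hne
    have e3 := hm.comm j l hjl a
    refine mul_ne_zero_of_comm (T l) (x := c' * psi (T j) a - psi (T j) a * c')
      (fun b => ((e2 b).mul_left (e3 b)).sub_left ((e3 b).mul_left (e2 b)))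
      (sub_ne_zero.2 hne) (hA.r1_ne hw0 hw0) ?_
    rw [mul_sub, ← mul_assoc, ← mul_assoc, ← (e3 _).eq, mul_assoc (psi (T j) a), ← e1,
      (((e3 _).symm.mul_left (c2 j (by simpa [hjl] using hj) a)).mul_left (e3 _).symm).eq, sub_self]
  · rw [mon_insert hm hl.2]
    refine sl_mul_le (S := (ZV hA (T i) M).comap (LinearMap.mulRight F c')) fun w' m hm' => ?_
    change _ * m * c' ∈ ZV hA (T i) M
    by_cases hw' : w' = 0
    · rw [show r1 PU w' w' = 0 by ext; simp [hw']]; simp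
    obtain ⟨β, b1, rfl⟩ := hA.trans hw0 hw'
    have e4 := mon_comm hm hl.2 hm'
    rw [← hA.cN_r1 b1, mul_assoc]
    refine inv.conj b1 (fun a => (e4 a).mul_left (e2 a)) ?_
    refine (Submodule.smul_mem_iff _ (neg_ne_zero.2 h2)).1 ?_
    convert Submodule.add_mem _ (inv.tv hA w 1 (c3 m hm')) (inv.tv hA w (-1) (c3 m hm')) using 1
    rw [← mul_assoc, ← (e4 _).eq, mul_assoc, ← e1, ← mul_assoc, ← mul_assoc, (e4 _).eq]
    simp only [one_smul, neg_smul, two_smul, mul_neg, neg_mul, mul_assoc]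
    abel

theorem pair_mem {i a b : ι} {K : Finset ι} (ha : a ∉ insert b K) (hb : b ∉ K)
    (h : mon PU hm (insert a (insert b K)) ≤ ZV (hM i).alt (T i) M) (w w' : U) :
    psi (T a) (r1 PU w w) * psi (T b) (r1 PU w' w') ∈ ZV (hM i).alt (T i) M := by
  have hA := (hM i).alt
  by_cases hw : w = 0
  · rw [show r1 PU w w = 0 by ext; simp [hw]]; simp
  by_cases hw' : w' = 0
  · rw [show r1 PU w' w' = 0 by ext; simp [hw']]; simp
  obtain ⟨f, hf⟩ := exists_B_eq hA.nd hw 1
  obtain ⟨f', hf'⟩ := exists_B_eq hA.nd hw' 1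
  obtain ⟨v, h1, h3⟩ := mon_sq hm hk h2 hA K
  rw [mon_insert hm ha, mon_insert hm hb] at h
  rw [Finset.mem_insert, not_or] at ha
  have key : ∀ x x' y y', psi (T a) x * (psi (T b) y * v) * (psi (T a) x' * (psi (T b) y' * v)) =
      psi (T a) (x * x') * psi (T b) (y * y') := fun x x' y y' => by
    rw [mul_assoc, ← mul_assoc (_ * v), (((hm.comm a b ha.1 x' y).symm).mul_left
      (mon_comm hm ha.2 h1 x')).eq, mul_assoc, ← mul_assoc, ← map_mul, mul_assoc (psi (T b) y),
      ← mul_assoc v, (mon_comm hm hb h1 y').eq, mul_assoc, h3, mul_one, ← map_mul]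
  have := (hM i).jordan hk h2 (h (Submodule.mul_mem_mul (tv_mem_sl _ w)
    (Submodule.mul_mem_mul (tv_mem_sl _ w') h1))) (h (Submodule.mul_mem_mul (h_mem_sl _ w f)
    (Submodule.mul_mem_mul (h_mem_sl _ w' f') h1))) (by rw [key, hA.sq]; simp)
  have e1 : ∀ {w f}, PU.B w f = 1 → r1 PU w w * (r1 PU w f + r1 PU f w) = r1 PU w w :=
    fun e => by ext; simp [hA.self, e]
  have e2 : ∀ {w f}, PU.B w f = 1 → (r1 PU w f + r1 PU f w) * r1 PU w w = -r1 PU w w :=
    fun {w f} e => by ext; simp [hA.self, e, hA.skew w f]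
  rw [key, key, e1 hf, e1 hf', e2 hf, e2 hf', map_neg, map_neg, neg_mul_neg, ← two_smul F,
    Submodule.smul_mem_iff _ h2] at this
  exact this

theorem mon_even {i : ι} (h : ∀ a b, a ≠ b → i ≠ a → i ≠ b → ∀ w w',
    psi (T a) (r1 PU w w) * psi (T b) (r1 PU w' w') ∈ ZV (hM i).alt (T i) M) (n : ℕ) :
    ∀ J : Finset ι, J.card = 2 * n → i ∉ J → mon PU hm J ≤ ZV (hM i).alt (T i) M := by
  induction n with
  | zero =>
    intro J hJ _
    rw [Finset.card_eq_zero.1 hJ]
    exact Submodule.one_le.2 ⟨fun _ => Commute.one_left _, fun w t => (hM i).has w t⟩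
  | succ n ih =>
    intro J hJ hi
    obtain ⟨a, J', ha, rfl, e⟩ := Finset.card_eq_succ.1 (show J.card = 2 * n + 1 + 1 from hJ)
    obtain ⟨b, K, hb, rfl, e'⟩ := Finset.card_eq_succ.1 e
    simp only [Finset.mem_insert, not_or] at hi
    rw [mon_insert hm ha, mon_insert hm hb]
    rw [Finset.mem_insert, not_or] at ha
    refine sl_mul_le fun w m hm' => sl_mul_le (S := (ZV (hM i).alt (T i) M).comap
      (LinearMap.mulLeft F (psi (T a) (r1 PU w w)))) (fun w' m hm' => ?_) hm'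
    have := (hM i).jordan hk h2 (h a b ha.1 hi.1 hi.2.1 w w') (ih K e' hi.2.2 hm') (by
      rw [mul_assoc, ← mul_assoc (psi (T b) _), ← (hm.comm a b ha.1 _ _).eq, mul_assoc,
        (hM i).alt.psi_sq]; simp)
    rwa [((mon_comm hm ha.2 hm' _).mul_right (mon_comm hm hb hm' _)).eq, ← two_smul F,
      Submodule.smul_mem_iff _ h2, mul_assoc] at this

omit h2 hM in
theorem Sx.EG_le_of_ZV {T : TS F R U V} (h : Sx T PR PU P M) (hR : 3 ≤ finrank F R)
    (hz : ∀ s, chi T s ∈ Adj P 1 → chi T s ∈ ZV h.alt T M) : EG P ≤ M := by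
  have := T.finite
  have hA := h.alt
  have hε : PR.ε = -P.ε := by rw [h.tf.ε_eq, hA.ε]; simp
  have sg : ∀ r w, P.q (T.τ r w) ∈ P.Λ := fun r w => h.tf.singW r (hA.all _)
  have q1 : ∀ w r r' c, c - P.q (T.τ r' w) ∈ P.Λ → Has M (eu P (T.τ r w) (T.τ r' w) c) :=
    fun w r r' c hc => by
    have a1 := P.tr_mem c (by simpa using P.Λ.add_mem hc (sg r' w))
    refine ((hz (r1 PR r r' - (P.ε * c) • r1 PR r r - P.ε • r1 PR r' r)
      (B_ext T fun a u b u' => ?_)).2 w 1).congr fun x => ?_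
    · simp only [RingHom.id_apply] at a1
      simp [h.tf.B_τ, PR.symm r a, PR.symm r' a, hε]
      linear_combination (PR.B r a * PR.B r b * PU.B u u' * -P.ε) * a1 +
        (-PR.B r' a * PR.B r b * PU.B u u') * P.εε
    · simp [eu_apply, h.tf.B_left, psi_r1]
      module
  have xl : ∀ e f r, PU.B e f = 1 → XLe P M (T.τ r e) := fun e f r hef z c hz hc => by
    have a1 : z = T.τ (T.cB PU e z) f + T.τ (-T.cB PU f z) e := by
      refine LinearMap.congr_fun (T.lext (f := LinearMap.id) (g := T.τ.flip f ∘ₗ T.cB PU e +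
        T.τ.flip e ∘ₗ (-T.cB PU f)) fun a u => ?_) z
      conv_lhs => rw [hA.dec hk hef u]
      simp [hA.skew u]
      abel
    rw [h.tf.B_left] at hz
    set b := T.cB PU e z
    obtain ⟨ρ, a2, a3⟩ : ∃ ρ, PR.B r ρ = 0 ∧ ρ ∉ F ∙ b := by
      by_contra hc
      push Not at hc
      have h1 := finrank_inf_ker ⊤ (PR.B r)
      have h2 := Submodule.finrank_mono
        (show ⊤ ⊓ LinearMap.ker (PR.B r) ≤ F ∙ b from fun v hv => hc v hv.2)
      have := finrank_span_singleton_le (F := F) b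
      rw [finrank_top] at h1
      omega
    obtain ⟨ρ', a4, a5⟩ := exists_perp_ne h.tf.ndU a3 (-1)
    obtain ⟨g, hg, eg⟩ := q1 f b ρ 0 (by simpa using P.Λ.neg_mem (sg ρ f))
    have b1 := has_eu_conj (q1 e r ρ' 0 (by simpa using P.Λ.neg_mem (sg ρ' e))) hg (h.hI hg)
    have b2 := isom_valid (h.hI hg) (w := T.τ ρ' e) (c := 0) (by simpa using P.Λ.neg_mem (sg ρ' e))
    rw [show g (T.τ r e) = T.τ r e by
      rw [eg, eu_fix] <;> simp [h.tf.B_τ, PR.eq_zero_symm hz, PR.eq_zero_symm a2]] at b1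
    rw [show g (T.τ ρ' e) = T.τ ρ' e + T.τ b f by
      simp [eg, eu_apply, h.tf.B_τ, a4, a5, hA.skew e f, hef]] at b1 b2
    have b3 : T.τ (-T.cB PU f z - ρ') e + (T.τ ρ' e + T.τ b f) = z := by
      conv_rhs => rw [a1]
      simp
      abel
    have b4 := q1 e r (-T.cB PU f z - ρ') (c - P.B (T.τ (-T.cB PU f z - ρ') e) (T.τ ρ' e + T.τ b f))
      (by
        have := P.Λ.sub_mem (P.Λ.add_mem hc (b3 ▸ P.q_add _ _)) b2
        convert this using 1
        ring)
    refine (b4.comp b1).congr fun x => ?_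
    rw [eu_comp (P.self_eq_zero (sg r e)) (by simp [h.tf.B_τ, hA.self])
      (by simp [h.tf.B_τ, hA.self, hz]), b3, add_zero, sub_add_cancel]
  have : Nontrivial U := Module.nontrivial_of_finrank_pos (R := F) (by omega)
  obtain ⟨e, he⟩ := exists_ne (0 : U)
  obtain ⟨f, hf⟩ := exists_B_eq hA.nd he 1
  obtain ⟨r, hr⟩ := exists_ne (0 : R)
  obtain ⟨r', hr'⟩ := exists_B_eq h.tf.ndU hr 1
  exact EG_le_of_xle h.tf.nd (sg r e) (sg r' f) (xl e f r hf)
    (xl f (-e) r' (by simp [hA.skew e f, hf])) (by simp [h.tf.B_τ, hf, hr'])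

include hm in
theorem ZV_scalar (hR : 3 ≤ finrank F R) (π : Equiv.Perm ι →* (V ≃ₗ[F] V))
    (hπ : ∀ σ i a, cN (π σ) (psi (T i) a) = psi (T (σ i)) a) (hc : ∀ a b, ⁅π a, π b⁆ ∈ M)
    (hne : ¬ EG P ≤ M) (i : ι) : ∀ y ∈ ZV (hM i).alt (T i) M, ∃ c : F, y = c • 1 := by
  intro y hy
  by_contra hy'
  push Not at hy'
  have : Nontrivial U := Module.nontrivial_of_finrank_pos (R := F) (by omega)
  have hA := (hM i).alt
  obtain ⟨J, ⟨a, ha⟩, hi, hJ⟩ := mon_extract hm hk h2 hM hy hy'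
  rw [← Finset.insert_erase ha] at hi hJ
  have ha' := Finset.notMem_erase a J
  rcases (J.erase a).eq_empty_or_nonempty with e | ⟨b, hb⟩
  · obtain ⟨w, hw⟩ := exists_ne (0 : U)
    rw [e, mon_insert hm (by simp), mon_empty, mul_one] at hJ
    exact hA.r1_ne hw hw (psi_injective (T a) ((Adj.eq_zero h2 (hM i).tf.nd
      ((hM i).ZV_le_adj (hJ (tv_mem_sl _ w))) ((hM a).skew w w)).trans (map_zero _).symm))
  rw [← Finset.insert_erase hb] at hi hJ ha'
  have h1 := pair_mem hm hk h2 hM ha' (Finset.notMem_erase _ _) hJ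
  simp only [Finset.mem_insert, not_or] at hi ha'
  have mv : ∀ x y z : ι, ∀ i a b, (∀ w w', psi (T a) (r1 PU w w) * psi (T b) (r1 PU w' w') ∈
      ZV hA (T i) M) → ∀ σ, σ = ⁅Equiv.swap x z, Equiv.swap z y⁆ → ∀ w w',
      psi (T (σ a)) (r1 PU w w) * psi (T (σ b)) (r1 PU w' w') ∈ ZV hA (T (σ i)) M :=
    fun x y z i a b h σ e w w' => by
    rw [← hπ, ← hπ, ← cN_mul]
    exact ZV_conj hA (by rw [e, map_commutatorElement]; exact hc _ _) (hπ σ i) (h w w')
  have h3 := fun x y z => all_triples (r := fun i a b => ∀ w w',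
    psi (T a) (r1 PU w w) * psi (T b) (r1 PU w' w') ∈ ZV hA (T i) M) (fun i a b h w w' => by
      by_cases e : a = b
      · exact e ▸ h w w'
      · exact (hm.comm a b e _ _).eq ▸ h w' w) (fun i a b e1 e2 e3 h => by
      simpa [commutatorElement_def, Equiv.swap_apply_def, e1, e2, e3, e1.symm, e2.symm, e3.symm]
        using mv i a b i a b h _ rfl) (fun i a b c e1 e2 e3 e4 e5 e6 h => by
      simpa [commutatorElement_def, Equiv.swap_apply_def, e1, e2, e3, e1.symm, e2.symm, e3.symm,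
        e4, e5, e6, e4.symm, e5.symm, e6.symm] using mv a b c i a b h _ rfl)
    hi.1 hi.2.1 ha'.1 h1 (x := x) (y := y) (z := z)
  refine hne ((hM i).EG_le_of_ZV hk hR fun s hs => ?_)
  have h4 : (⨆ J : {J : Finset ι // i ∉ J}, mon PU hm J) ≤ ZV hA (T i) M ⊔ Adj P (-1) :=
    iSup_le fun J => by
    rcases Nat.even_or_odd' J.1.card with ⟨n, e | e⟩
    · exact (mon_even hm hk h2 hM (fun a b e1 e2 e3 => h3 i a b e2 e3 e1) n J e J.2).trans le_sup_left
    · have := mon_adj hm hM J.1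
      rw [e, pow_succ, pow_mul, neg_one_sq, one_pow, one_mul] at this
      exact this.trans le_sup_right
  obtain ⟨x, h5, x', h6, e⟩ := Submodule.mem_sup.1 (h4 (mon_span hm hk h2 hA i s))
  rwa [← e, Adj.eq_zero h2 (hM i).tf.nd (c := x') (by
    simpa [← e] using Submodule.sub_mem _ hs ((hM i).ZV_le_adj h5)) h6, add_zero]

end H28.Wr
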