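import Mathlib
import Cfsg.Agent.Base
import Cfsg.Agent.Lib.Wr7.Sp4
import Cfsg.Agent.Lib.Tensor.Xtr

/-!
Tensor wreath products of symplectic groups are maximal.
-/

set_option autoImplicit false
set_option linter.unusedSectionVars false
set_option linter.unusedSimpArgs false

namespace H28.Wr

open Module Cfsg H97 H11.Ten H11.Ten.TS
open scoped commutatorElement

section Abstract

variable {F R U V : Type*} [Field F] [AddCommGroup R] [Module F R] [AddCommGroup U]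
  [Module F U] [AddCommGroup V] [Module F V] {PR : PQ F R (RingHom.id F)}
  {PU : PQ F U (RingHom.id F)} {P : PQ F V (RingHom.id F)} {M : Subgroup (V ≃ₗ[F] V)}
  [FiniteDimensional F R] [FiniteDimensional F U] [Nontrivial R]

theorem Alt.wp (h : Alt PU) : WP PU := ⟨h.nd, fun c _ => h.all c, Or.inr h.all⟩

theorem Sx.cx' {T : TS F R U V} (h : Sx T PR PU P M) (hk : 2 ≤ finrank F U) :
    H11.Ten.Cx T PR PU P M :=
  ⟨h.tf, h.alt.wp, h.hW, h.hI, exists_ne 0, hk, Or.inr h.alt.all⟩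

theorem Sx.std_of_lev {T : TS F R U V} (h : Sx T PR PU P M) (hk : 4 ≤ finrank F U)
    (hR : ∀ s ∈ T.levF PU M, ∃ c : F, s = c • LinearMap.id) : T.Std PU M :=
  ⟨fun _ ht => hR _ ((h.cx (by omega)).algF_le ((h.cx' (by omega)).zlev_le_algF hk ht)),
    fun _ _ _ h0 _ hv hn => hR _ ((h.cx' (by omega)).comp_mem_sp h.alt.all h0 hv hn)⟩

theorem Sx.std_of_ZV {T : TS F R U V} (h : Sx T PR PU P M) (hk : finrank F U = 2)
    (h2 : (2 : F) ≠ 0) (hR : ∀ y ∈ ZV h.alt T M, ∃ c : F, y = c • 1) : T.Std PU M := by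
  have : Nontrivial U := Module.nontrivial_of_finrank_pos (R := F) (by omega)
  obtain ⟨w, hw⟩ := exists_ne (0 : U)
  refine ⟨fun t ht => ?_, fun w v n h0 _ hv hn => ⟨0, ?_⟩⟩
  · obtain ⟨c, hc⟩ := hR (chi T t) (h.mem_ZV h2 (fun a => (commute_psi_chi T a t).symm) hw
      ((ht w (h.alt.all _)).congr fun x => by simp [psi_r1, cB]))
    exact ⟨c, scalar_of_chi hc⟩
  · obtain ⟨c, rfl⟩ := h.alt.perp_two hk h0 hv
    ext u
    simp [hn.1]

variable {ι : Type*} [Fintype ι] [DecidableEq ι] {T : ι → TS F R U V}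
  {π : Equiv.Perm ι →* (V ≃ₗ[F] V)}

theorem WF.not_le (h : WF T PR PU P π) (hA : Alt PU) [Nontrivial U] (hR : 3 ≤ finrank F R) (i : ι) :
    ¬ EG P ≤ WG T := fun hc => by
  obtain ⟨w, hw⟩ := exists_ne (0 : U)
  obtain ⟨r, hr⟩ := exists_ne (0 : R)
  obtain ⟨r', hr'⟩ := exists_notMem_span (show 2 ≤ finrank F R by omega) r
  have sg : ∀ r, P.q ((T i).τ r w) ∈ P.Λ := fun r => (h.tf i).singW r (hA.all _)
  obtain ⟨g, hg, e⟩ := has_eu_EG (sg r) (w := (T i).τ r' w) (c := 0)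
    (by simp [(h.tf i).B_τ, hA.self]) (by simpa using P.Λ.neg_mem (sg r'))
  refine not_rel_of_lev (s := r1 PR r r' - P.ε • r1 PR r' r) hw (hA.B_ne hw) (hA.self w)
    (fun c hc => ?_) (fun x => ?_) (h.multi.rel_of_mem (hc hg) i i)
  · obtain ⟨y, hy, a1, a2⟩ := exists_ker_two hR (PR.B r) (PR.B r')
    have a3 := LinearMap.congr_fun hc y
    obtain rfl : c = 0 := by simpa [a1, a2, hy] using a3.symm
    obtain ⟨x, hx⟩ := exists_B_eq (h.tf i).ndU hr 1
    have a4 := LinearMap.congr_fun hc x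
    simp only [LinearMap.sub_apply, r1_apply, LinearMap.smul_apply, hx, one_smul, zero_smul,
      LinearMap.zero_apply, sub_eq_zero] at a4
    exact hr' (Submodule.mem_span_singleton.2 ⟨P.ε * PR.B r' x, by
      rw [mul_smul, a4, smul_smul, P.εε, one_smul]⟩)
  · simp [e, eu_apply, (h.tf i).B_left, cB]
    module

/-- The tensor wreath product of symplectic groups is maximal. -/
theorem isMaximalIn_WG_sp [Finite F] [Nonempty ι] (h : WF T PR PU P π) (hA : Alt PU) {k : ℕ}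
    (hK : IsoK P k) (hn : k + 2 ≤ finrank F V) (hR : 3 ≤ finrank F R)
    (hd : 5 ≤ finrank F U ∨ ((2 : F) ≠ 0 ∧
      (4 ≤ finrank F U ∨ (finrank F U = 2 ∧ ∃ t : F, t ≠ 0 ∧ t ^ 2 ≠ 1)))) :
    Geo.IsMaximalIn (EG P) (WG T ⊓ EG P) := by
  obtain ⟨i₀⟩ := ‹Nonempty ι›
  have hk : 2 ≤ finrank F U := by omega
  have : Nontrivial U := Module.nontrivial_of_finrank_pos (R := F) (by omega)
  have := (T i₀).finite
  refine isMaximalIn_of inf_le_right (fun hc => h.not_le hA hR i₀ (hc.trans inf_le_left))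
    fun M h1 h2 ⟨g, hg, hg'⟩ => ?_
  by_contra hc
  have hM : ∀ i, Sx (T i) PR PU P M := fun i => ⟨h.tf i, hA, fun β hβ =>
    h1 ⟨h.multi.opE_mem i β, ((h.tf i).opW_mem hβ).2⟩, h2.trans EG_le_isom⟩
  have hS : ∀ i, (T i).Std PU M := fun i => by
    by_cases h4 : 4 ≤ finrank F U
    · exact (hM i).std_of_lev h4 (levF_scalar h.multi (by omega) hM (hd.imp_right And.left)
        (h.cyc hK hn i₀ h1) hc i)
    · obtain ⟨a1, a2⟩ := hd.resolve_left (by omega)
      obtain ⟨a3, -⟩ := a2.resolve_left h4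
      exact (hM i).std_of_ZV a3 a1 (ZV_scalar h.multi a3 a1 hM hR π h.perm
        (fun a b => h1 (h.comm_mem hK hn i₀ a b)) hc i)
  have ht : 4 ≤ finrank F U ∨ ((2 : F) ≠ 0 ∧ finrank F U = 2 ∧ ∃ t : F, t ≠ 0 ∧ t ^ 2 ≠ 1) := by
    rcases hd with hd | ⟨a1, hd | hd⟩
    · exact Or.inl (by omega)
    · exact Or.inl hd
    · exact Or.inr ⟨a1, hd⟩
  have rd := hA.wp.rd hk (ht.imp_right fun ⟨a1, _, t, a2, a3⟩ =>
    ⟨Or.inr a1, t, rfl, a2, by rintro rfl; simp at a3⟩)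
  have fam : Fam T M (EG PU) (ptΦ PU) PU.Λ := ⟨rd, h.multi.comm, fun i => (hM i).hW, by
    rintro g hg i j _ ⟨w, h0, hw, rfl⟩ w' e
    exact ((hM j).cx' hk).same (((hM i).cx' hk).map hg) (hS j) ((hS i).map hg) rd
      (ht.imp_right fun ⟨_, _, t, a2, a3⟩ => ⟨t, a2, by rwa [RingHom.id_apply, ← pow_two]⟩) h0 hw e⟩
  have key := fam.perm (fun g _ i e => not_comm_self (T := (T i).map g) hk fun x y => by
    obtain ⟨c, hc⟩ := h.multi.scalar (x := ((T i).map g).inW x) fun j a => (e j a x).symm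
    rw [hc]
    exact (Commute.one_left _).smul_left c) (by
      rcases hd with hd | ⟨a1, hd | ⟨a2, t, a3, a4⟩⟩
      · exact hA.wp.van_sp hA.all (Or.inl hd)
      · refine hA.wp.van_sp hA.all (Or.inr ⟨hd, ?_⟩)
        simpa using finsum_pow_eq_zero (Λ := PU.Λ) (t := -1) (n := 1) (by simp)
          (fun _ _ => hA.all _) (fun e => a1 (by linear_combination -e))
      · exact hA.wp.van_sp2 hA.all a2 a1 a3 a4) g hg
  refine hg' ⟨h.multi.mem_WG hk fun i j => ?_, h2 hg⟩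
  obtain ⟨l, hl⟩ := key i
  by_cases e : l = j
  · exact Or.inl (e ▸ hl.inW)
  · exact Or.inr (Comm.of_same (T' := T l) hl.inW (h.multi.comm l j e))

end Abstract

section Model

open H10.Asch
open scoped Matrix MatrixGroups

variable {F : Type*} [Field F] [Fintype F] {κ : Type} [Fintype κ] [DecidableEq κ] {t k : ℕ}
  {f₁ : (Fin k → F) → (Fin k → F) → F}

theorem exists_sq_ne_one (h : 4 ≤ Fintype.card F) : ∃ t : F, t ≠ 0 ∧ t ^ 2 ≠ 1 := by
  classical
  obtain ⟨t, -, ht⟩ := Finset.exists_mem_notMem_of_card_lt_card (s := ({0, 1, -1} : Finset F))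
    (t := Finset.univ) (Finset.card_le_three.trans_lt h)
  simp only [Finset.mem_insert, Finset.mem_singleton, not_or] at ht
  exact ⟨t, ht.1, fun e => (mul_self_eq_one_iff.1 (pow_two t ▸ e)).elim ht.2.1 ht.2.2⟩

theorem isMaximalIn_model {e : κ ≃ (Fin (t + 1) → Fin k)} {P : GL κ F} (hf : Geo.IsSymplecticForm f₁)
    (hk : k ≠ 0) {PR : PQ F ((Fin t → Fin k) → F) (RingHom.id F)} {Q : PQ F (κ → F) (RingHom.id F)}
    (h : WF (tsW e P) PR (PQ.ofAlt (bilOf hf.bilinear) hf.alternating) Q (piW e P)) {l : ℕ}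
    (hK : IsoK Q l) (hn : l + 2 ≤ Fintype.card κ) (hR : 3 ≤ k ^ t)
    (h1 : ¬ Odd (Fintype.card F) → 6 ≤ k) (h2 : ¬ (Fintype.card F = 3 ∧ k = 2)) :
    Geo.IsMaximalIn (pull (EG Q)) (Geo.tensorWreathSubgroup k (t + 1) e P ⊓ pull (EG Q)) := by
  have : NeZero k := ⟨hk⟩
  rw [wreath_eq, ← pull_inf]
  refine isMaximalIn_pull (isMaximalIn_WG_sp h ⟨(h.tf 0).ndW, fun _ => trivial⟩ hK (by simpa)
    (by rwa [finrank_R]) ?_)
  rw [Module.finrank_fin_fun]
  by_cases ho : Odd (Fintype.card F)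
  · obtain ⟨a, ha⟩ := even_of_symplectic hf
    obtain ⟨b, hb⟩ := id ho
    have := Fintype.one_lt_card (α := F)
    refine Or.inr ⟨two_ne_zero_of_odd ho, ?_⟩
    by_cases h4 : 4 ≤ k
    · exact Or.inl h4
    · exact Or.inr ⟨by omega, exists_sq_ne_one (by omega)⟩
  · exact Or.inl (by have := h1 ho; omega)

theorem le_pow_of_card (e : κ ≃ (Fin (t + 1) → Fin k)) (ht : 2 ≤ t ∨ (t ≠ 0 ∧ 5 ≤ Fintype.card κ))
    (hκ : 2 ≤ Fintype.card κ) : k ≠ 0 ∧ 3 ≤ k ^ t := by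
  have hc : Fintype.card κ = k ^ (t + 1) := by simpa using Fintype.card_congr e
  have h2 : 2 ≤ k := by
    by_contra hk
    obtain rfl | rfl : k = 0 ∨ k = 1 := by omega
    all_goals simp at hc; omega
  refine ⟨by omega, ?_⟩
  by_cases h : 2 ≤ t
  · exact le_trans (by norm_num) ((Nat.pow_le_pow_left h2 2).trans
      (Nat.pow_le_pow_right (by omega) h))
  · obtain ⟨a1, a2⟩ := ht.resolve_left h
    obtain rfl : t = 1 := by omega
    by_contra hk
    obtain rfl : k = 2 := by simp at hk; omega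
    omega

/-- Symplectic tensor wreath products in a symplectic group. -/
theorem isMaximalIn_wreath_sp {m : ℕ} (hm : 2 ≤ m) (hodd : Odd (Fintype.card F)) (ht : Odd t)
    (ht3 : 3 ≤ t) (hex : ¬ (Fintype.card F = 3 ∧ k = 2)) (e : (Fin m ⊕ Fin m) ≃ (Fin t → Fin k))
    (P : GL (Fin m ⊕ Fin m) F) (hf : Geo.IsSymplecticForm f₁)
    (hT : Geo.IsTensorPowerFormStructure id (sympForm m F) f₁ e P) :
    Geo.IsMaximalIn (spGL m F) (Geo.tensorWreathSubgroup k t e P ⊓ spGL m F) := by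
  obtain ⟨t, rfl⟩ : ∃ s, t = s + 1 := ⟨t - 1, by omega⟩
  obtain ⟨a1, a2⟩ := le_pow_of_card e (Or.inl (by omega)) (by simp; omega)
  have : NeZero k := ⟨a1⟩
  obtain ⟨BR, hR, h⟩ := wf_alt_alt (two_ne_zero_of_odd hodd) (Nat.odd_add_one.1 ht |> Nat.not_odd_iff_even.1)
    (B := H11.Sp.bilin m F) H11.Sp.form_self (spP_nd m) hf hT
  rw [spGL_eq]
  exact isMaximalIn_model hf a1 h (spP_isoK m) (by simp; omega) a2 (fun h => (h hodd).elim) hex

/-- Symplectic tensor wreath products in an orthogonal group. -/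
theorem isMaximalIn_wreath_sp_quad (hn : 5 ≤ Fintype.card κ) {Q : (κ → F) → F}
    (hQ : Geo.IsNondegenerateQuadraticForm Q) (ht : 2 ≤ t) (hqt : Odd (Fintype.card F) → Even t)
    (hex2 : ¬ (Fintype.card F = 3 ∧ k = 2)) (hex3 : ¬ Odd (Fintype.card F) → 6 ≤ k)
    (e : κ ≃ (Fin t → Fin k)) (P : GL κ F) (hf : Geo.IsSymplecticForm f₁)
    (hT : Geo.IsTensorPowerFormStructure id (QuadraticMap.polar Q) f₁ e P)
    (hpure : ∀ xs : Fin t → (Fin k → F),
      Q ((P : Matrix κ κ F) *ᵥ ((fun a : Fin t → Fin k => ∏ i, xs i (a i)) ∘ e)) = 0) :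
    Geo.IsMaximalIn (Geo.omegaGL Q) (Geo.tensorWreathSubgroup k t e P ⊓ Geo.omegaGL Q) := by
  obtain ⟨t, rfl⟩ : ∃ s, t = s + 1 := ⟨t - 1, by omega⟩
  obtain ⟨a1, a2⟩ := le_pow_of_card e (Or.inr ⟨by omega, hn⟩) (by omega)
  have : NeZero k := ⟨a1⟩
  obtain ⟨Q, rfl, hQ'⟩ := exists_quadForm hQ
  obtain ⟨BR, hR, h⟩ := wf_alt_quad (by omega) (by
    by_cases ho : Odd (Fintype.card F)
    · exact (Nat.not_even_iff_odd.1 (Nat.even_add_one.1 (hqt ho))).neg_one_pow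
    · rw [show (-1 : F) = 1 by linear_combination -two_eq_zero_of_not_odd ho, one_pow]) hQ' hf hT hpure
  rw [omegaGL_eq hQ' hn]
  exact isMaximalIn_model hf a1 h (isoK_quad Q) hn a2 hex3 hex2

end Model

end H28.Wr
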